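/-
Odd transpositions: the group generated by a class and an opposite member.
-/
import Cfsg.Agent.RI.Od3
import Cfsg.Agent.Classical.SL2Schur
import Cfsg.Agent.BN.SzSchur
set_option autoImplicit false
set_option linter.unusedSectionVars false

namespace CF.Rt
open Subgroup Cfsg CF.BG Relation
open scoped commutatorElement

universe u
variable {G : Type u} [Group G] [Finite G] {D S T : Set G}
variable {a a' b c d e f g k p q r s t u v w x y z : G} {H N Q : Subgroup G}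

theorem ker_two_psl {F : Type} [Field F] [Fintype F] [CharP F 2] {L : Type*} [Group L] (f : G →* L)
    (e : L ≃* Matrix.ProjectiveSpecialLinearGroup (Fin 2) F) (s : Function.Surjective f)
    (k : f.ker ≤ center G) (pf : commutator G = ⊤) : PiGrp {2} f.ker := fun p hp dv => by
  by_contra n
  haveI := Fact.mk hp
  haveI : Finite L := Finite.of_surjective f s
  refine Cfsg.Agent.S0102.result (by
    rw [_root_.commutator, ← map_top_of_surjective f s, ← map_commutator, ← _root_.commutator, pf])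
    (fun P => ?_) f s k pf dv
  have s' : Function.Surjective (e.symm.toMonoidHom.comp (QuotientGroup.mk' _)) :=
    e.symm.surjective.comp (QuotientGroup.mk'_surjective _)
  obtain ⟨P, rfl⟩ := Sylow.mapSurjective_surjective s' p P
  haveI := CF.Classical.SL2_isCyclic_of_odd 2 n n P.isPGroup'
  exact isCyclic_of_surjective _ (MonoidHom.subgroupMap_surjective _ _)

theorem ker_two_sz {L : Type*} [Group L] (f : G →* L) (e : Lie.IsoSuzuki L) (s : Function.Surjective f)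
    (k : f.ker ≤ center G) (pf : commutator G = ⊤) : PiGrp {2} f.ker := by
  obtain ⟨F, _, _, m, h1, h2, ⟨e⟩⟩ := e
  obtain ⟨j, hj⟩ := (BN.Suz.lieD F m h2).exists_card_ker (σ := e.toMonoidHom.comp f)
    (Nat.card_eq_fintype_card (α := F) ▸ BN.Suz.eight_le_card h1 h2) ⟨e.surjective.comp s,
      by simpa [MonoidHom.ker_mulEquiv_comp] using k, pf ▸ le_top⟩
  exact piGrp_of_card Nat.prime_two (by simpa [MonoidHom.ker_mulEquiv_comp] using hj)

theorem OC.perfect (h : OC D) : commutator G = ⊤ := by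
  obtain ⟨a, b, l⟩ := h.ex
  refine eq_top_iff.2 (h.top ▸ (closure_le _).2 fun y hy => ?_)
  obtain ⟨k, rfl⟩ := h.cl _ l.m y hy
  obtain ⟨g, rfl⟩ := h.cl _ l.l _ l.r
  refine Normal.conj_mem inferInstance _ ?_ k
  simpa [commutatorElement_def, h.inv l.l, mul_assoc, _root_.commutator] using
    commutator_mem_commutator (mem_top a) (mem_top g)

namespace OT
variable (h : OT D)
include h

theorem EQ_of_cent (he : e ∈ EV D a) (hf : f ∈ EV D a) (n : e ≠ f) (c : Commute g (e * f)) :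
    EQ D a (g * a * g⁻¹) := by
  have key : ∀ y ∈ D, Commute a y ↔ Commute (e * f) y := fun y hy =>
    ⟨fun k => ((he.2 y hy).1 k).mul_left ((hf.2 y hy).1 k),
      fun k => (he.2 y hy).2 (h.comm_of_mul hy he.1 hf.1 n k.symm).symm⟩
  intro y hy
  rw [key y hy, ← c.mul_inv_cancel, show y = g * (g⁻¹ * y * g⁻¹⁻¹) * g⁻¹ by group, comm_conj, comm_conj,
    key _ (h.conj _ hy)]

/-- the stabilizer of a class -/
def SE (a : G) : Subgroup G where
  carrier := {g | EQ D a (g * a * g⁻¹)}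
  one_mem' := by simpa using .refl D a
  mul_mem' {x y} hx hy := EQ.trans hx (by simpa [mul_assoc] using EQ.conj hy (h.mem_norm x))
  inv_mem' := h.EQ_inv

theorem SE_conj (hg : g ∈ h.SE a) (he : e ∈ EV D a) : g * e * g⁻¹ ∈ EV D a :=
  ⟨h.conj g he.1, EQ.trans hg (h.EV_conj he g).2⟩

theorem cent_of_NS (O : 𝐎 {2} (⊤ : Subgroup G) = ⊥) (hg : g ∈ NS D) : g ∈ center G := by
  have : closure D ≤ 𝐂₁ g := (closure_le _).2 fun y hy => by
    have := O_le_O_of_normal (H := ⊤) ⟨le_top, fun k _ => norm_NS (h.mem_norm k)⟩ _ (h.mul_mem_QS hg hy)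
    rw [O, mem_bot, mul_eq_one_iff_inv_eq, h.inv hy, eq_mul_inv_iff_mul_eq] at this
    exact mem_cent1.2 this
  exact mem_center_iff.2 fun y => mem_cent1.1 (this (h.top ▸ mem_top y))

end OT

/-- a class generated by one of its classes and an opposite member -/
structure XS (D : Set G) (a x : G) : Prop extends OT D where
  cl : ∀ a ∈ D, ∀ b ∈ D, ∃ g : G, g * a * g⁻¹ = b
  ha : a ∈ D
  hx : x ∈ D
  o : Op a x
  gen : FF D a x = ⊤

theorem OT.exists_XS (h : OT D) (ha : a ∈ D) (hx : x ∈ D) (o : Op a x) :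
    ∃ (D' : Set (FF D a x)) (a' x' : FF D a x), XS D' a' x' ∧ (a' : G) = a ∧ (x' : G) = x ∧
      (∀ y ∈ D', (y : G) ∈ D) ∧ ∀ e : FF D a x, (e : G) ∈ EV D a → e ∈ EV D' a' := by
  let x' : FF D a x := ⟨x, subset_closure (.inr rfl)⟩
  let a' : FF D a x := ⟨a, subset_closure (.inl ⟨ha, .refl _ _⟩)⟩
  let D' : Set (FF D a x) := {y | ∃ g, g * x' * g⁻¹ = y}
  have l : ∀ y ∈ D', (y : G) ∈ D := by rintro _ ⟨g, rfl⟩; exact h.conj g hx
  have cc : ∀ {s t : FF D a x}, Commute s t ↔ Commute (s : G) t := 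
    ⟨congrArg Subtype.val, fun k => Subtype.ext k⟩
  have m : ∀ e : FF D a x, (e : G) ∈ EV D a → e ∈ EV D' a' := fun e he => by
    obtain ⟨w, hw, w1, w2⟩ := h.swap hx he.1 (h.op_eq ha he.1 he.2 hx o).symm
    exact ⟨⟨⟨w, (closure_le _).2 (by rintro _ (rfl | rfl); exacts [x'.2, e.2]) w1⟩,
      Subtype.ext (by simpa [h.inv hw] using w2)⟩, fun y hy => by rw [cc, cc]; exact he.2 _ (l y hy)⟩
  have gen : FF D' a' x' = ⊤ := eq_top_iff.2 (closure_closure_coe_preimage.ge.trans (closure_mono (by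
    rintro y (k | k); exacts [.inl (m y k), .inr (Subtype.ext k)])))
  have hx' : x' ∈ D' := ⟨1, by simp⟩
  have ot : ∀ {s t}, s ∈ D' → t ∈ D' → Commute s t ∨ Op s t := fun hs ht =>
    (h.ot (l _ hs) (l _ ht)).imp cc.2 op_coe.1
  refine ⟨D', a', x', ⟨⟨⟨⟨fun k => Subtype.ext (h.sq (l _ k)), fun k e => h.ne (l _ k) (congrArg _ e), ?_,
    fun hs ht => (ot hs ht).imp_right .inl⟩, eq_top_iff.2 (gen.ge.trans (closure_mono ?_))⟩, ot⟩, ?_,
    (m a' ⟨ha, .refl _ _⟩).1, hx', op_coe.1 o, gen⟩, rfl, rfl, l, m⟩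
  · rintro _ e ⟨g, rfl⟩ he
    exact ⟨e * g, by rw [mul_inv_rev, inv_eq (Subtype.ext (h.sq (l _ he)) : e * e = 1)]; group⟩
  · rintro y (k | rfl); exacts [k.1, hx']
  · rintro _ ⟨g, rfl⟩ _ ⟨k, rfl⟩
    exact ⟨k * g⁻¹, by group⟩

namespace XS
variable (h : XS D a x)
include h

theorem cent (c : ∀ e ∈ EV D a, Commute e u) (k : Commute x u) : u ∈ center G :=
  mem_center_iff.2 fun _ => h.FF_le u c k (h.gen ▸ mem_top _)

theorem not_cent (hd : d ∈ D) : d ∉ center G := fun m => by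
  obtain ⟨g, e⟩ := h.cl d hd a h.ha
  rw [mem_center_iff.1 m, mul_inv_cancel_right] at e
  exact h.op_nc h.ha h.hx h.o (e ▸ (mem_center_iff.1 m x).symm)

theorem image {G' : Type u} [Group G'] [Finite G'] (f : G →* G') (s : Function.Surjective f)
    (k : f.ker ≤ twoZCore G) :
    XS (f '' D) (f a) (f x) ∧ ∀ e ∈ EV D a, f e ∈ EV (f '' D) (f a) := by
  have n : ¬ Commute (f a) (f x) := fun c => h.op_nc h.ha h.hx h.o (h.comm_of_map f k h.ha h.hx c)
  have o := h.toOT.image f s fun d hd e => by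
    obtain ⟨g, rfl⟩ := h.cl d hd a h.ha
    exact n (by simp [e])
  have m : ∀ e ∈ EV D a, f e ∈ EV (f '' D) (f a) := fun e he => ⟨⟨e, he.1, rfl⟩, by
    rintro _ ⟨y, hy, rfl⟩
    exact ⟨fun c => ((he.2 y hy).1 (h.comm_of_map f k h.ha hy c)).map f,
      fun c => ((he.2 y hy).2 (h.comm_of_map f k he.1 hy c)).map f⟩⟩
  refine ⟨⟨o, ?_, ⟨a, h.ha, rfl⟩, ⟨x, h.hx, rfl⟩, o.op ⟨a, h.ha, rfl⟩ ⟨x, h.hx, rfl⟩ n, ?_⟩, m⟩
  · rintro _ ⟨a, ha, rfl⟩ _ ⟨b, hb, rfl⟩
    obtain ⟨g, rfl⟩ := h.cl a ha b hb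
    exact ⟨f g, by simp⟩
  · rw [eq_top_iff, ← map_top_of_surjective f s, ← h.gen, MonoidHom.map_closure]
    refine closure_mono ?_
    rintro _ ⟨y, k | rfl, rfl⟩; exacts [.inl (m y k), .inr rfl]

theorem not_rc (l : Ln D b c) : ¬ RC D a x := fun r => by
  have o : OC D := ⟨h.toOT, h.cl, _, _, l⟩
  obtain ⟨e, he, c⟩ := o.near h.ha h.hx h.o fun k => h.op_nc h.ha h.hx h.o (k a h.ha x r)
  exact h.not_cent he.1 (h.cent (fun y hy => (h.ev_comm hy he).symm) c.symm)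

theorem types (l : Ln D b c) : TyA (closure (CP (mZ G '' D) (mZ G a))) ∨ TyB (mZ G '' D) (mZ G a) := by
  have o : OC D := ⟨h.toOT, h.cl, _, _, l⟩
  refine (o.types' h.ha h.hx (h.not_rc l)).imp_right fun k => k.resolve_right ?_
  rintro ⟨-, w, w1, w2, w3⟩
  obtain ⟨h', -⟩ := h.image (mZ G) (QuotientGroup.mk'_surjective _) (QuotientGroup.ker_mk' _).le
  haveI := o.simple h.ha h.hx (h.not_rc l)
  have := h'.cent (fun e he => w2 e (rc_of h'.ha he.1 ((he.2 _ h'.ha).1 (.refl _)).symm)) w3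
  rcases (inferInstance : (center (G ⧸ twoZCore G)).Normal).eq_bot_or_eq_top with e | e
  · exact w1 (mem_bot.1 (e ▸ this))
  · exact h'.not_cent h'.ha (e ▸ mem_top _)

variable (O : 𝐎 {2} (⊤ : Subgroup G) = ⊥)
include O

omit h in
theorem eq_one_of_cent (m : u ∈ center G) (u2 : u * u = 1) : u = 1 :=
  mem_bot.1 (O ▸ le_O (normalIn_top.2 ⟨fun x hx g => by
    rwa [mem_center_iff.1 (zpowers_le.2 m hx), mul_inv_cancel_right]⟩)
    (piElt_of_pow_eq_one Nat.prime_two (by rwa [pow_two])).zpowers (mem_zpowers u))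

theorem line (he : e ∈ EV D a) (hf : f ∈ EV D a) (n : ¬ Commute x (e * f * x * (e * f))) : Ln D e f := by
  have c : Commute e f := (he.2 f hf.1).1 ((hf.2 a h.ha).1 (.refl a)).symm
  have q2 := cm_eq_one (h.sq he.1) (h.sq hf.1) c
  obtain ⟨y, hy, -, c1, c2⟩ := h.dihed h.hx q2 n
  have ne : e ≠ f := fun k => n (by rw [k, h.sq hf.1]; simp)
  have c3 := (he.2 y hy).2 (h.comm_of_mul hy he.1 hf.1 ne c1).symm
  have := eq_one_of_cent O (h.cent (fun s hs => (((h.ev_comm hs ⟨he.1, ((he.2 a h.ha).1 (.refl a)).symm⟩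
    ).symm.mul_right (h.ev_comm hs ⟨hf.1, ((hf.2 a h.ha).1 (.refl a)).symm⟩).symm).mul_right
      (h.ev_comm hs ⟨hy, c3⟩).symm)) c2) (cm_eq_one q2 (h.sq hy) c1.symm)
  exact ⟨he.1, hf.1, c, by rwa [eq_inv_of_mul_eq_one_left this, h.inv hy]⟩

theorem single (n : ∀ e ∈ EV D a, ∀ f ∈ EV D a, Commute x (e * f * x * (e * f))) (he : e ∈ EV D a) :
    e = a := by
  let T : Set G := {q | ∃ e ∈ EV D a, ∃ f ∈ EV D a, e * f = q}
  let M := closure (T ∪ (fun q => x * (q * x * q)) '' T)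
  have cc : ∀ {e f}, e ∈ EV D a → f ∈ EV D a → Commute e f := fun he hf =>
    h.ev_comm hf ⟨he.1, ((he.2 a h.ha).1 (.refl a)).symm⟩
  have ea : a ∈ EV D a := ⟨h.ha, .refl _ _⟩
  have t2 : ∀ q ∈ T, q * q = 1 ∧ x * (q * x * q) * (x * (q * x * q)) = 1 ∧ x * (q * x * q) ∈ h.SE a := by
    rintro _ ⟨e, he, f, hf, rfl⟩
    have q2 : e * f * (e * f) = 1 := cm_eq_one (h.sq he.1) (h.sq hf.1) (cc he hf)
    refine ⟨q2, cm_eq_one (h.sq h.hx) (h.sq (h.cj2 q2 h.hx)) (n e he f hf), ?_⟩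
    by_cases k : e = f
    · rw [k, h.sq hf.1, one_mul, mul_one, h.sq h.hx]; exact one_mem _
    refine h.EQ_of_cent he hf k ?_
    rw [Commute, SemiconjBy]
    nth_rw 2 [(n e he f hf).eq]
    generalize e * f = q at q2
    simp [mul_assoc, mm q2, q2]
  have le : M ≤ h.SE a := (closure_le _).2 (by
    rintro _ (⟨e, he, f, hf, rfl⟩ | ⟨q, hq, rfl⟩)
    · change EQ _ _ _
      rw [((cc he ea).mul_left (cc hf ea)).mul_inv_cancel]
      exact .refl _ _
    · exact (t2 q hq).2.2)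
  have nM : FF D a x ≤ 𝐍 M := (closure_le _).2 (by
    rintro y (hy | rfl) <;> refine norm_closure' ?_ <;> rintro _ (hq | ⟨q, hq, rfl⟩)
    · obtain ⟨e, he, f, hf, rfl⟩ := hq
      rw [((cc hy he).mul_right (cc hy hf)).mul_inv_cancel]
      exact subset_closure (.inl ⟨e, he, f, hf, rfl⟩)
    · have := mul_mem (subset_closure (k := T ∪ (fun q => x * (q * x * q)) '' T)
        (.inl ⟨y, hy, _, h.SE_conj (t2 q hq).2.2 hy, rfl⟩)) (subset_closure (.inr ⟨q, hq, rfl⟩))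
      simpa only [mul_assoc, inv_mul_cancel, mul_one, h.inv hy.1] using this
    · have := mul_mem (subset_closure (k := T ∪ (fun q => y * (q * y * q)) '' T)
        (.inr ⟨_, hq, rfl⟩)) (subset_closure (.inl hq))
      simpa only [mul_assoc, (t2 _ hq).1, mul_one, h.inv h.hx] using this
    · obtain ⟨e, he, f, hf, rfl⟩ := hq
      rw [((Commute.refl y).mul_right (n e he f hf)).mul_inv_cancel]
      exact subset_closure (.inr ⟨_, ⟨e, he, f, hf, rfl⟩, rfl⟩))
  have := h.cent_of_NS O (g := e * a) ⟨h.mem_norm _, fun y hy => by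
    obtain ⟨g, rfl⟩ := h.cl a h.ha y hy
    have := EQ.conj (le (conj_mem_of_norm' (nM (h.gen ▸ mem_top g))
      (subset_closure (.inl ⟨e, he, a, ea, rfl⟩)))) (h.mem_norm g)
    generalize e * a = q at this ⊢
    simpa only [mul_assoc, mul_inv_rev, inv_inv, mul_inv_cancel_left, mul_inv_cancel, mul_one] using this⟩
  by_contra k
  exact h.op_nc h.ha h.hx h.o (h.comm_of_mul' h.hx he.1 h.ha k (mem_center_iff.1 this x)).symm

theorem main : (∃ (F : Type) (_ : Field F) (_ : Fintype F), CharP F 2 ∧ 4 ≤ Fintype.card F ∧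
    Nonempty (G ≃* Matrix.ProjectiveSpecialLinearGroup (Fin 2) F)) ∨ Lie.IsoSuzuki G ∨
    ∃ n : ℕ, Nonempty (G ≃* DihedralGroup n) := by
  by_cases n : ∀ e ∈ EV D a, ∀ f ∈ EV D a, Commute x (e * f * x * (e * f))
  · obtain ⟨e⟩ := CF.Invol.nonempty_closure_pair_equiv_dihedral (h.ord h.ha) (h.ord h.hx)
    refine .inr (.inr ⟨_, ⟨(topEquiv.symm.trans (MulEquiv.subgroupCongr ?_)).trans e⟩⟩)
    refine le_antisymm (h.gen.ge.trans (closure_mono ?_)) le_top
    rintro y (k | rfl); exacts [.inl (h.single O n k), .inr rfl]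
  push Not at n
  obtain ⟨e, he, f, hf, n⟩ := n
  have l := h.line O he hf n
  have pf := OC.perfect ⟨h.toOT, h.cl, _, _, l⟩
  have k : (mZ G).ker ≤ center G := fun z hz => mem_center_iff.2 fun g => by
    rw [QuotientGroup.ker_mk'] at hz
    have := mem_center_iff.1 (mem_comap.1 hz) (QuotientGroup.mk' _ g)
    rw [← map_mul, ← map_mul, QuotientGroup.mk'_apply, QuotientGroup.mk'_apply, QuotientGroup.eq,
      pCore_eq Nat.prime_two, O, mem_bot, inv_mul_eq_one] at this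
    exact this
  have iso : PiGrp {2} (mZ G).ker → Nonempty (G ≃* G ⧸ twoZCore G) := fun p =>
    ⟨MulEquiv.ofBijective (mZ G) ⟨(MonoidHom.ker_eq_bot_iff _).1
      (eq_bot_iff.2 (O ▸ le_O (normalIn_top.2 inferInstance) p)), QuotientGroup.mk'_surjective _⟩⟩
  obtain ⟨F, _, _, k1, k2, ⟨i⟩, -⟩ | ⟨k1, -⟩ := h.types l
  · obtain ⟨j⟩ := iso (ker_two_psl _ i (QuotientGroup.mk'_surjective _) k pf)
    exact .inl ⟨F, _, _, k1, k2, ⟨j.trans i⟩⟩
  · obtain ⟨j⟩ := iso (ker_two_sz _ k1 (QuotientGroup.mk'_surjective _) k pf)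
    obtain ⟨F, _, _, m, k1, k2, ⟨i⟩⟩ := k1
    exact .inr (.inl ⟨F, _, _, m, k1, k2, ⟨j.trans i⟩⟩)

end XS

theorem sameCommutingClass_eq : sameCommutingClass D d = EV D d := Set.ext fun e => and_congr_right fun _ =>
  ⟨fun k y hy => ⟨fun c => (k ▸ (⟨hy, c.symm⟩ : y ∈ commutingMembers D d) : y ∈ commutingMembers D e).2.symm,
    fun c => (k.symm ▸ (⟨hy, c.symm⟩ : y ∈ commutingMembers D e) : y ∈ commutingMembers D d).2.symm⟩,
    fun k => Set.ext fun y => and_congr_right fun hy =>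
      ⟨fun c => ((k y hy).1 c.symm).symm, fun c => ((k y hy).2 c.symm).symm⟩⟩

end CF.Rt
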