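/-
Elementary abelian TI-subgroups that are maximal abelian normal in a characteristic 2 normalizer.
-/
import Cfsg.Agent.BG.B11
import Cfsg.Agent.PLocal.FFCore
set_option autoImplicit false
set_option linter.unusedSectionVars false

namespace CF.Rt.GF
open Subgroup Cfsg CF.BG
open scoped commutatorElement

variable {G : Type*} [Group G] [Finite G] {U U₁ U₂ V : Subgroup G} {a b g u v w x y : G}

/-- the 2-core of the normalizer -/
abbrev QQ (V : Subgroup G) : Subgroup G := 𝐎 {2} (𝐍 V)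
/-- its centralizer of `V` -/
abbrev PP (V : Subgroup G) : Subgroup G := QQ V ⊓ 𝐂 V

theorem cj_QQ (g : G) (V : Subgroup G) : cj g (QQ V) = QQ (cj g V) := by rw [cj_O, cj_norm]
theorem cj_PP (g : G) (V : Subgroup G) : cj g (PP V) = PP (cj g V) := by rw [cj_inf, cj_QQ, cj_cent]
theorem QQ_n (V : Subgroup G) : QQ V ⊴ 𝐍 V := O_normal _ _
theorem PP_n (V : Subgroup G) : PP V ⊴ 𝐍 V :=
  (QQ_n V).inf ⟨cent_le_norm V, norm_le_norm_cent V⟩
theorem PP_pi (V : Subgroup G) : PiGrp {2} (PP V) := (O_pi _ _).inf_left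

/-- the hypothesis -/
structure TV (V : Subgroup G) : Prop where
  ab : Abelem 2 V
  cc : 𝐍 V ⊓ 𝐂 (QQ V) ≤ QQ V
  mx : ∀ A, V ≤ A → A ⊴ 𝐍 V → Abel A → A = V
  ti : ∀ g : G, ∀ v ∈ V, v ≠ 1 → g * v * g⁻¹ ∈ V → g ∈ 𝐍 V

theorem card_conj (c : Conj V U) : ♯U = ♯V := by obtain ⟨g, rfl⟩ := c; exact card_cj g V

namespace TV
variable (h : TV V)
include h

theorem cj (g : G) : TV (cj g V) where
  ab := h.ab.cj g
  cc := by rw [← cj_QQ, ← cj_norm, ← cj_cent, ← cj_inf]; exact cj_mono g h.cc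
  mx A a n b := by
    rw [eq_cj_iff]
    exact h.mx _ (cj_le_iff.1 a) (by simpa only [cj_norm, cj_inv_cj] using n.cj g⁻¹) (abel_cj.2 b)
  ti k v hv n e := by
    rw [← cj_norm, mem_cj]
    refine h.ti _ _ (mem_cj.1 hv) (fun e => n ?_) ?_
    · rw [← mul_left_inj g, ← mul_right_inj g⁻¹, ← mul_assoc, e]; group
    · convert mem_cj.1 e using 1; group

theorem conj (c : Conj V U) : TV U := by obtain ⟨g, rfl⟩ := c; exact h.cj g

theorem sq (hv : v ∈ V) : v * v = 1 := by rw [← pow_two]; exact h.ab.pow v hv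

theorem inv (hv : v ∈ V) : v⁻¹ = v := inv_eq_of_mul_eq_one_right (h.sq hv)

theorem eq (c : Conj V U) (hx : x ∈ V) (hx' : x ∈ U) (n : x ≠ 1) : U = V := by
  obtain ⟨g, rfl⟩ := c
  refine cj_of_norm (h.ti g _ (mem_cj.1 hx') (fun e => n ?_) (by simpa [mul_assoc] using hx))
  rw [← mul_left_inj g, ← mul_right_inj g⁻¹, ← mul_assoc, e]; group

theorem one (c : Conj V U) (n : U ≠ V) (hx : x ∈ V) (hx' : x ∈ U) : x = 1 :=
  by_contra fun k => n (h.eq c hx hx' k)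

theorem cent_le (hv : v ∈ V) (n : v ≠ 1) : 𝐂₁ v ≤ 𝐍 V := fun g hg =>
  h.ti g v hv n (by rwa [mem_cent1.1 hg, mul_inv_cancel_right])

theorem le_P : V ≤ PP V := le_inf (le_O (normalIn_norm V) h.ab.pi) h.ab.abel

theorem zp (hx : x ∈ PP V) (c : x ∈ 𝐂 (PP V)) : x ∈ V :=
  (h.mx _ (le_inf h.le_P (cent_symm inf_le_right)) ((PP_n V).char (center_normal _).le (norm_center _))
    (center_abel _)).le ⟨hx, c⟩

theorem der : ⁅PP V, PP V⁆ ≤ V := by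
  have pn := PP_n V
  have yn : PP V ⊓ centMod (PP V) V ⊴ 𝐍 V :=
    pn.inf ⟨centMod_le_norm _ _, norm_centMod pn.norm le_rfl⟩
  have vc : V ≤ 𝐂 (PP V) := cent_symm inf_le_right
  have vy : V ≤ PP V ⊓ centMod (PP V) V :=
    le_inf h.le_P (le_centMod.2 ⟨le_norm_self V, comm_le_left pn.le⟩)
  have yp : ⁅PP V ⊓ centMod (PP V) V, PP V⁆ ≤ V :=
    (commutator_mono inf_le_right le_rfl).trans (comm_centMod_le _ _)
  have cn : PP V ⊓ 𝐂 (PP V ⊓ centMod (PP V) V) ⊴ 𝐍 V :=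
    ⟨inf_le_left.trans pn.le, norm_inf_cent pn.norm yn.norm⟩
  have : PP V ⊓ 𝐂 (PP V ⊓ centMod (PP V) V) ≤ V := by
    by_contra n
    obtain ⟨z, ⟨z1, z2⟩, z3⟩ := exists_mem_ne_one (((PP_pi V).qt V).nil.inf_cent_ne_bot
      ((cn.of_le inf_le_left pn.le).qt V) (mt (qt_eq_bot cn.le).1 n))
    obtain ⟨x, hx, xn, rfl⟩ := mem_qt.1 z1
    refine z3 (qe_of_mem ((h.mx _ (le_inf vy (vc.trans (cent_anti inf_le_left)))
      (yn.char (center_normal _).le (norm_center _)) (center_abel _)).le ⟨⟨hx.1, mem_centMod.2 ⟨xn, fun u hu => ?_⟩⟩, hx.2⟩))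
    have un := pn.le hu
    rw [← qe_eq_one (x := ⁅x, u⁆) (mul_mem (mul_mem (mul_mem xn un) (inv_mem xn)) (inv_mem un)),
      qe_comm xn un, commutatorElement_eq_one_iff_mul_comm]
    exact (mem_cent.1 z2 _ (qe_mem_qt hu un)).symm
  refine le_trans (le_inf (der_le _) (comm_eq_bot.1 (le_bot_iff.1 (three_subgroup ?_ ?_ ?_ ?_ ?_)))) this
  iterate 3 exact norm_bot.ge.trans' le_top
  · exact (comm_eq_bot.2 (((commutator_comm _ _).le.trans yp).trans vc)).le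
  · exact (comm_eq_bot.2 (yp.trans vc)).le

theorem cm (hx : x ∈ PP V) (hy : y ∈ PP V) : ⁅x, y⁆ ∈ V := h.der (commutator_mem_commutator hx hy)

theorem vc (hv : v ∈ V) (hx : x ∈ PP V) : v * x = x * v := mem_cent.1 hx.2 v hv

theorem sqP (hx : x ∈ PP V) : x * x ∈ V := by
  refine h.zp (mul_mem hx hx) (mem_cent.2 fun y hy => ?_)
  have e : x * y = ⁅x, y⁆ * (y * x) := by simp [commutatorElement_def]
  have k := h.vc (h.cm hx hy) hx
  calc y * (x * x) = ⁅x, y⁆ * ⁅x, y⁆ * (y * x) * x := by rw [h.sq (h.cm hx hy)]; group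
    _ = ⁅x, y⁆ * (x * y) * x := by rw [mul_assoc ⁅x, y⁆, ← e]
    _ = x * (⁅x, y⁆ * (y * x)) := by rw [← mul_assoc ⁅x, y⁆, k]; group
    _ = x * x * y := by rw [← e, mul_assoc]

theorem f4 (hy : y ∈ 𝐂 V) (c : ∀ x ∈ PP V, ⁅y, x⁆ ∈ V) : y ∈ PP V := by
  have pn := PP_n V
  have kn : 𝐂 V ⊓ centMod (PP V) V ⊴ 𝐍 V :=
    ⟨inf_le_left.trans (cent_le_norm V), norm_inf (norm_le_norm_cent V) (norm_centMod pn.norm le_rfl)⟩
  refine ⟨le_O kn (piGrp_of_forall_elt fun k hk => ?_) ⟨hy, mem_centMod.2 ⟨cent_le_norm V hy, c⟩⟩, hy⟩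
  obtain ⟨a, b, -, hb, pa, pb, rfl⟩ := exists_piPart {2} k
  have bk : zpowers b ≤ 𝐂 V ⊓ centMod (PP V) V := zpowers_le.2 (zpowers_le.2 hk hb)
  have c1 : zpowers b ≤ 𝐂 (PP V) := cent_of_stable (pb.zpowers.coprime' h.ab.pi)
    ((commutator_comm _ _).le.trans ((commutator_mono (bk.trans inf_le_right) le_rfl).trans (comm_centMod_le _ _)))
    (bk.trans inf_le_left)
  have c2 : zpowers b ≤ 𝐂 (QQ V) := cent_of_stable (pb.zpowers.coprime' (PP_pi V))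
    ((commutator_mono le_rfl bk).trans (((QQ_n V).comm_le_inf kn).trans (inf_le_inf_left _ inf_le_left))) c1
  rw [((O_pi _ _).elt (h.cc ⟨kn.le (bk (mem_zpowers b)), c2 (mem_zpowers b)⟩)).eq_one pb, mul_one]
  exact pa

theorem comm (c : Conj V U) (n : U ≠ V) (l : U ≤ 𝐍 V) : U ≤ 𝐂 V := by
  have k := h.conj c
  have key : ∀ u ∈ U, u ≠ 1 → ∀ v ∈ V, v * u = u * v → v ∈ 𝐂 U := fun u hu n1 v hv e =>
    mem_cent.2 fun a ha => commutatorElement_eq_one_iff_mul_comm.1 (h.one c n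
      (mul_mem (conj_mem_of_norm (l ha) hv) (inv_mem hv))
      (by simpa only [commutatorElement_def, mul_assoc] using
        mul_mem ha (conj_mem_of_norm (k.cent_le hu n1 (mem_cent1.2 e)) (inv_mem ha))))
  refine cent_symm fun v hv => by_contra fun nv => ?_
  have m : ∀ u ∈ U, v * (u * v * u⁻¹) ∈ V ⊓ 𝐂 U := fun u hu => by
    have m1 := conj_mem_of_norm (l hu) hv
    refine ⟨mul_mem hv m1, ?_⟩
    by_cases e : u = 1
    · simp [e, h.sq hv]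
    refine key u hu e _ (mul_mem hv m1) ?_
    rw [k.inv hu] at m1 ⊢
    rw [h.ab.abel.mul_comm hv m1, ← h.ab.abel.mul_comm hv m1]
    calc v * (u * v * u) * u = v * u * v * (u * u) := by group
      _ = u * u * (v * u * v) := by rw [k.sq hu]; group
      _ = u * (u * v * u * v) := by group
      _ = _ := by rw [h.ab.abel.mul_comm hv m1]
  have := Nat.card_le_card_of_injective (fun u : U => (⟨_, m u u.2⟩ : ↥(V ⊓ 𝐂 U))) fun a b e => by
    have e := mul_left_cancel (congrArg Subtype.val e)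
    refine Subtype.ext (by_contra fun ne => nv (key _ (mul_mem (inv_mem b.2) a.2)
      (fun e => ne (inv_mul_eq_one.1 e).symm) v hv ?_))
    rw [← mul_assoc, ← mul_left_inj (a : G)⁻¹, ← mul_right_inj (b : G)]
    simpa [mul_assoc] using e.symm
  exact (card_lt (lt_of_le_of_ne inf_le_left fun e => nv (e.ge hv).2)).not_ge (card_conj c ▸ this)

end TV

/-- `U` is a conjugate of `V` inside `O₂(N(V))` -/
structure Arr (V U : Subgroup G) : Prop where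
  tv : TV V
  c : Conj V U
  ne : U ≠ V
  le : U ≤ QQ V

namespace Arr
variable (h : Arr V U)
include h

theorem cj (g : G) : Arr (cj g V) (cj g U) :=
  ⟨h.tv.cj g, conj_cj_left.2 (conj_cj_right.2 h.c), mt cj_inj.1 h.ne, cj_QQ g V ▸ cj_mono g h.le⟩

theorem cj' (hg : g ∈ 𝐍 V) : Arr V (BG.cj g U) := by simpa only [cj_of_norm hg] using h.cj g

theorem tu : TV U := h.tv.conj h.c

theorem le_P : U ≤ PP V := le_inf h.le (h.tv.comm h.c h.ne (h.le.trans (QQ_n V).le))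

theorem one (hx : x ∈ V) (hx' : x ∈ U) : x = 1 := h.tv.one h.c h.ne hx hx'

theorem exU : ∃ u ∈ U, u ≠ 1 := exists_mem_ne_one fun e => h.ne (by
  rw [e, eq_comm, ← card_eq_one', ← card_conj h.c, e, card_bot])

theorem cen (hx : x ∈ PP V) (hu : u ∈ U) (n : u ≠ 1) (e : x * u = u * x) : x ∈ 𝐂 U :=
  mem_cent.2 fun a ha => commutatorElement_eq_one_iff_mul_comm.1 (h.one (h.tv.cm (h.le_P ha) hx)
    (by simpa only [commutatorElement_def, mul_assoc] using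
      mul_mem ha (conj_mem_of_norm (h.tu.cent_le hu n (mem_cent1.2 e)) (inv_mem ha))))

theorem abW : Abel (V ⊔ U) := h.tv.ab.abel.sup h.tu.ab.abel (cent_symm (h.le_P.trans inf_le_right))

theorem W_le : V ⊔ U ≤ PP V := sup_le h.tv.le_P h.le_P

theorem memW : w ∈ V ⊔ U ↔ ∃ v ∈ V, ∃ u ∈ U, v * u = w := mem_sup_norm' (h.le_P.trans (PP_n V).le)

theorem cardW : ♯(V ⊔ U) = ♯V * ♯V := by
  rw [card_sup_of_inf_bot (.inr (h.le_P.trans (PP_n V).le)) (eq_bot_of_forall fun x hx => h.one hx.1 hx.2),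
    card_conj h.c]

theorem nW : PP V ≤ 𝐍 (V ⊔ U) :=
  norm_of_comm_le ((commutator_mono h.W_le le_rfl).trans (h.tv.der.trans le_sup_left))

theorem exists_opp : ∃ U₂, Arr V U₂ ∧ ¬ U₂ ≤ 𝐂 U := by
  by_contra! n
  have a : Abel (sSup {X | ∃ m ∈ 𝐍 V, X = BG.cj m U}) := by
    refine sSup_le ?_
    rintro _ ⟨m, hm, rfl⟩
    refine le_cent_sSup ?_
    rintro _ ⟨k, hk, rfl⟩
    rw [cj_le_iff, cj_cent, cj_cj]
    exact cent_symm (n _ (h.cj' (mul_mem (inv_mem hm) hk)))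
  have l : sSup {X | ∃ m ∈ 𝐍 V, X = BG.cj m U} ≤ PP V := sSup_le (by
    rintro _ ⟨m, hm, rfl⟩; exact (h.cj' hm).le_P)
  have := h.tv.mx (V ⊔ _) le_sup_left ⟨sup_le (le_norm_self V) (l.trans (PP_n V).le), norm_sup le_rfl
    (le_norm_of_cj_le fun a ha => cj_le_iff.2 (sSup_le (by
      rintro _ ⟨m, hm, rfl⟩
      rw [← cj_le_iff, cj_cj]
      exact le_sSup ⟨_, mul_mem ha hm, rfl⟩)))⟩ (h.tv.ab.abel.sup a (cent_symm (l.trans inf_le_right)))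
  obtain ⟨u, hu, n⟩ := h.exU
  refine n (h.one (this.le (mem_sup_right (le_sSup (a := U) ?_ hu))) hu)
  exact ⟨1, one_mem _, (cj_one U).symm⟩

section
variable (k : Arr V U₂) (n : ¬ U₂ ≤ 𝐂 U)
include k n

theorem ncomm (hu : u ∈ U) (n1 : u ≠ 1) (hy : y ∈ U₂) (n2 : y ≠ 1) : y * u ≠ u * y := fun e =>
  n (cent_symm fun a ha => k.cen (h.le_P ha) hy n2 (mem_cent.1 (h.cen (k.le_P hy) hu n1 e) a ha))

theorem surj (hu : u ∈ U) (n1 : u ≠ 1) (hv : v ∈ V) : ∃ y ∈ U₂, ⁅y, u⁆ = v := by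
  obtain ⟨y, e⟩ := ((Nat.bijective_iff_injective_and_card
    fun y : U₂ => (⟨_, h.tv.cm (k.le_P y.2) (h.le_P hu)⟩ : V)).2 ⟨fun a b e => by
      have e : ⁅(a : G), u⁆ = ⁅(b : G), u⁆ := congrArg Subtype.val e
      refine Subtype.ext (by_contra fun ne => h.ncomm k n hu n1 (mul_mem (inv_mem b.2) a.2)
        (fun e => ne (inv_mul_eq_one.1 e).symm) ?_)
      rw [← mul_assoc, ← mul_left_inj (a : G)⁻¹, ← mul_right_inj (b : G)]
      simpa [mul_assoc] using mul_right_cancel e, card_conj k.c⟩).2 ⟨v, hv⟩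
  exact ⟨y, y.2, congrArg Subtype.val e⟩

theorem dec (hx : x ∈ PP V) : ∃ y ∈ U₂, ∃ c ∈ PP V ⊓ 𝐂 U, y * c = x := by
  obtain ⟨u, hu, n1⟩ := h.exU
  obtain ⟨y, hy, e⟩ := h.surj k n hu n1 (h.tv.cm hx (h.le_P hu))
  have m := mul_mem (inv_mem (k.le_P hy)) hx
  refine ⟨y, hy, y⁻¹ * x, ⟨m, h.cen m hu n1 ?_⟩, by group⟩
  rw [← mul_assoc, ← mul_left_inj x⁻¹, ← mul_right_inj y]
  simpa [mul_assoc] using mul_right_cancel e.symm

end

theorem conj_in (hu : u ∈ U) (n1 : u ≠ 1) (hv : v ∈ V) : ∃ y ∈ PP V, y * u * y⁻¹ = v * u := by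
  obtain ⟨U₂, k, n⟩ := h.exists_opp
  obtain ⟨y, hy, rfl⟩ := h.surj k n hu n1 hv
  exact ⟨y, k.le_P hy, by simp [commutatorElement_def]⟩

theorem part (hw : w ∈ V ⊔ U) (n : w ∉ V) : ∃ y ∈ PP V, w ∈ BG.cj y U := by
  obtain ⟨v, hv, u, hu, rfl⟩ := h.memW.1 hw
  obtain ⟨y, hy, e⟩ := h.conj_in hu (fun e => n (by simpa [e] using hv)) hv
  exact ⟨y, hy, e ▸ conj_mem_cj.2 hu⟩

theorem g4 (c : Conj V U₁) (hx : x ∈ U₁) (hw : x ∈ V ⊔ U) (n : x ≠ 1) :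
    U₁ = V ∨ ∃ y ∈ PP V, U₁ = BG.cj y U := by
  by_cases e : x ∈ V
  · exact .inl (h.tv.eq c e hx n)
  obtain ⟨y, hy, e⟩ := h.part hw e
  exact .inr ⟨y, hy, (h.tu.cj y).eq (conj_cj_left.2 (h.c.symm.trans c)) e hx n⟩

theorem g4' (c : Conj V U₁) (hx : x ∈ U₁) (hw : x ∈ V ⊔ U) (n : x ≠ 1) : U₁ ≤ V ⊔ U := by
  obtain rfl | ⟨y, hy, rfl⟩ := h.g4 c hx hw n
  exacts [le_sup_left, cj_le_of_norm (h.nW hy) le_sup_right]

theorem zp0 (hx : x ∈ PP V) (c : x ∈ 𝐂 (PP V ⊓ 𝐂 U)) : x ∈ V ⊔ U := by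
  obtain ⟨U₂, k, n⟩ := h.exists_opp
  obtain ⟨u, hu, a, ha, rfl⟩ := k.dec h (fun e => n (cent_symm e)) hx
  refine mul_mem (mem_sup_right hu) (mem_sup_left (h.tv.zp ha.1 (mem_cent.2 fun b hb => ?_)))
  obtain ⟨y, hy, d, hd, rfl⟩ := h.dec k n hb
  have := mem_cent.1 c d hd
  rw [← mul_assoc, ← mem_cent.1 hd.2 u hu, mul_assoc, mul_assoc, mul_right_inj] at this
  rw [mul_assoc, this, ← mul_assoc, mem_cent.1 ha.2 y hy, mul_assoc]

theorem nrm (hy : y ∈ 𝐍 U) (hv : v ∈ V) (n : v ≠ 1) (e : y * v * y⁻¹ ∈ V ⊔ U) : y ∈ 𝐍 (V ⊔ U) :=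
  mem_norm_of_cj_le (by
    rw [cj_sup, cj_of_norm hy]
    exact sup_le (h.g4' (conj_cj V y) (conj_mem_cj.2 hv) e (by simpa using n)) le_sup_right)

theorem nrm' (c : Conj V U₁) (hy : y ∈ 𝐍 V) (hu : u ∈ U₁) (n : u ≠ 1) (e : y * u * y⁻¹ ∈ V ⊔ U) :
    BG.cj y (V ⊔ U₁) ≤ V ⊔ U := by
  rw [cj_sup, cj_of_norm hy]
  exact sup_le le_sup_left (h.g4' (conj_cj_right.2 c) (conj_mem_cj.2 hu) e (by simpa using n))

theorem invs (k : Arr V U₂) (n : ¬ U₂ ≤ 𝐂 U) (hv : v ∈ V) (hu : u ∈ U) (hy : y ∈ U₂)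
    (e : y * (v * u) * (y * (v * u)) = 1) : y = 1 ∨ u = 1 := by
  by_contra! m
  refine h.ncomm k n hu m.2 hy m.1 ?_
  rw [← mul_assoc y, ← h.tv.vc hv (k.le_P hy), mul_assoc v, mul_assoc v, ← mul_assoc _ v,
    ← h.tv.vc hv (mul_mem (k.le_P hy) (h.le_P hu)), mul_assoc v, ← mul_assoc v, h.tv.sq hv, one_mul,
    mul_eq_one_iff_eq_inv, mul_inv_rev, h.tu.inv hu, k.tu.inv hy] at e
  exact e

theorem inv_mem' (k : Arr V U₂) (n : ¬ U₂ ≤ 𝐂 U) (l : PP V ⊓ 𝐂 U ≤ V ⊔ U) (hx : x ∈ PP V) (e : x * x = 1) :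
    x ∈ V ⊔ U ∨ x ∈ V ⊔ U₂ := by
  obtain ⟨y, hy, c, hc, rfl⟩ := h.dec k n hx
  obtain ⟨v, hv, u, hu, rfl⟩ := h.memW.1 (l hc)
  obtain rfl | rfl := h.invs k n hv hu hy e
  · exact .inl (by simpa using l hc)
  · exact .inr (mul_mem (mem_sup_right hy) (mem_sup_left (by simpa using hv)))

section
variable (hn : ¬ V ≤ QQ U)
include hn

theorem nw (hy : y ∈ 𝐍 (V ⊔ U)) : y ∈ 𝐍 V := by
  by_contra n
  obtain ⟨v, hv, n1⟩ := exists_mem_ne_one (H := V) fun e => hn (e ▸ bot_le)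
  obtain e | ⟨x, hx, e⟩ := h.g4 (conj_cj V y) (conj_mem_cj.2 hv)
    (conj_mem_of_norm hy (mem_sup_left hv)) (by simpa using n1)
  · exact n (cj_eq_self.1 e)
  have e' : BG.cj (x⁻¹ * y) V = U := by rw [← cj_cj, e, cj_inv_cj]
  have k := h.cj (x⁻¹ * y)
  rw [e'] at k
  refine hn (le_sup_left.trans (?_ : V ⊔ U ≤ _))
  rw [← cj_of_norm (mul_mem (inv_mem (h.nW hx)) hy), cj_sup, e']
  exact k.W_le.trans inf_le_left

omit hn in
theorem vc : V ≤ 𝐂 U := cent_symm (h.le_P.trans inf_le_right)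

omit hn in
theorem vn : V ≤ 𝐍 (PP U) := h.vc.trans ((cent_le_norm U).trans (PP_n U).norm)

theorem vp (hv : v ∈ V) (k : v ∈ PP U) : v = 1 := by
  by_contra n
  refine n (h.one hv (h.tu.zp k (mem_cent.2 fun x hx => commutatorElement_eq_one_iff_mul_comm.1 ?_)))
  have c := h.tu.cm hx k
  refine h.one (mul_mem (conj_mem_of_norm (h.nw hn (h.nrm ((PP_n U).le hx) hv n ?_)) hv) (inv_mem hv)) c
  simpa [commutatorElement_def] using mul_mem (mem_sup_right c : _ ∈ V ⊔ U) (mem_sup_left hv)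

theorem star (hy : y ∈ PP U) (hv : v ∈ V) (n : v ≠ 1) (c : ⁅y, v⁆ ∈ U) : y ∈ 𝐂 V := by
  have := h.nw hn (h.nrm ((PP_n U).le hy) hv n (by
    simpa [commutatorElement_def] using mul_mem (mem_sup_right c : _ ∈ V ⊔ U) (mem_sup_left hv)))
  exact mem_cent.2 fun a ha => (commutatorElement_eq_one_iff_mul_comm.1 (h.vp hn
    (mul_mem (conj_mem_of_norm this ha) (inv_mem ha)) (by
      simpa only [commutatorElement_def, mul_assoc] using mul_mem hy (conj_mem_of_norm (h.vn ha) (inv_mem hy))))).symm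

omit hn in
theorem cc (hx : x ∈ PP U) (hv : v ∈ V) : ⁅x, v⁆ ∈ PP U ∧ ⁅⁅x, v⁆, v⁆ ∈ U := by
  have m : ⁅x, v⁆ ∈ PP U := by
    simpa only [commutatorElement_def, mul_assoc] using mul_mem hx (conj_mem_of_norm (h.vn hv) (inv_mem hx))
  refine ⟨m, ?_⟩
  convert h.tu.sqP m using 1
  simp only [commutatorElement_def, mul_inv_rev, inv_inv, h.tv.inv hv, mul_assoc]
  rw [← mul_assoc v v, h.tv.sq hv, one_mul]

theorem wid : PP V ⊓ 𝐂 U ≤ V ⊔ U := by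
  have pn : PP V ⊓ 𝐂 U ≤ 𝐍 U := inf_le_right.trans (cent_le_norm U)
  have pn' := pn.trans (PP_n U).norm
  have vv : ∀ {A}, A ≤ PP U → A ≤ V → A ≤ ⊥ := fun a b x hx => h.vp hn (b hx) (a hx)
  have R : PP U ⊓ PP V ≤ U := fun r hr => by
    obtain ⟨v, hv, u, hu, rfl⟩ := h.memW.1 (h.zp0 hr.2 (zpowers_le.1 (comm_eq_bot.1 (le_bot_iff.1 (vv
      ((commutator_mono (zpowers_le.2 hr.1) le_rfl).trans (comm_le_left pn'))
      ((commutator_mono (zpowers_le.2 hr.2) inf_le_left).trans h.tv.der))))))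
    have : v * u * u⁻¹ ∈ PP U := mul_mem hr.1 (inv_mem (h.tu.le_P hu))
    rwa [h.vp hn hv (by rwa [mul_inv_cancel_right] at this), one_mul]
  have D : ⁅PP U ⊓ 𝐂 V, PP V ⊓ 𝐂 U⁆ ≤ U := (le_inf
    ((commutator_mono inf_le_left le_rfl).trans (comm_le_left pn')) ((commutator_mono le_rfl inf_le_left).trans
      (comm_le_right (inf_le_right.trans ((cent_le_norm V).trans (PP_n V).norm))))).trans R
  obtain ⟨v, hv, n1⟩ := exists_mem_ne_one (H := V) fun e => hn (e ▸ bot_le)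
  have E : ⁅PP U, V⁆ ≤ PP U ⊓ 𝐂 V := commutator_le.2 fun x hx a ha => ⟨(h.cc hx ha).1, by
    by_cases e : a = 1
    · simp [e]
    · exact h.star hn (h.cc hx ha).1 ha e (h.cc hx ha).2⟩
  have F : ⁅PP V ⊓ 𝐂 U, PP U⁆ ≤ PP U ⊓ 𝐂 V := fun e he => ⟨comm_le_right pn' he,
    h.star hn (comm_le_right pn' he) hv n1 (three_subgroup pn (PP_n U).le (h.vc.trans (cent_le_norm U))
      ((commutator_mono E le_rfl).trans D) (by
        rw [comm_eq_bot'.2 (inf_le_left.trans inf_le_right : PP V ⊓ 𝐂 U ≤ _), commutator_bot_left]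
        exact bot_le) (commutator_mem_commutator he hv))⟩
  have K := three_subgroup pn pn (PP_n U).le ((commutator_mono F le_rfl).trans D)
    ((commutator_mono ((commutator_comm _ _).le.trans F) le_rfl).trans D)
  have := vv (fun x hx => h.tu.f4 (der_le _ hx : x ∈ PP V ⊓ 𝐂 U).2 fun y hy => K (commutator_mem_commutator hx hy))
    ((der_mono inf_le_left).trans h.tv.der)
  exact fun x hx => h.zp0 hx.1 (der_eq_bot.1 (le_bot_iff.1 this) hx)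

theorem lemL (k : Arr U U₁) (hv : v ∈ V) (n : v ≠ 1) (e : v ∈ 𝐍 (U ⊔ U₁)) : V ≤ 𝐂 (U ⊔ U₁) := by
  obtain ⟨x, hx, xu, c⟩ : ∃ x ∈ U ⊔ U₁, x ∉ U ∧ ⁅x, v⁆ ∈ U := by
    obtain ⟨u, hu, n1⟩ := k.exU
    by_cases c : ⁅u, v⁆ ∈ U
    · exact ⟨u, mem_sup_right hu, fun e => n1 (k.one e hu), c⟩
    · have := mul_mem (mem_sup_right hu : _ ∈ U ⊔ U₁) (conj_mem_of_norm e (inv_mem (mem_sup_right hu)))
      exact ⟨_, by simpa only [commutatorElement_def, mul_assoc] using this, c, (h.cc (k.le_P hu) hv).2⟩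
  have x1 : x ≠ 1 := fun e => xu (e ▸ one_mem _)
  obtain ⟨y, hy, m⟩ := k.part hx xu
  have := (k.tu.cj y).comm (conj_cj_left.2 (h.c.trans k.c).symm)
    (fun e => x1 (h.vp hn (e.ge m) (k.W_le hx)))
    ((le_cent1_iff.2 (h.star hn (k.W_le hx) hv n c)).trans ((k.tu.cj y).cent_le m x1))
  rw [← cj_of_norm (k.nW hy), cj_sup, cj_of_norm ((PP_n U).le hy)]
  exact le_cent_sup h.vc this

end

theorem symm_le : V ≤ QQ U := by
  by_contra hn
  obtain ⟨v, hv, n1⟩ := exists_mem_ne_one (H := V) fun e => hn (e ▸ bot_le)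
  obtain ⟨U₂, k, n⟩ := h.exists_opp
  have l := h.wid hn
  obtain ⟨g, rfl⟩ := h.c
  have h' := h.cj g
  have k' := k.cj g
  have n' : ¬ BG.cj g U₂ ≤ 𝐂 (BG.cj g (BG.cj g V)) := mt cj_cent_iff.1 n
  have l' : PP (BG.cj g V) ⊓ 𝐂 (BG.cj g (BG.cj g V)) ≤ BG.cj g V ⊔ BG.cj g (BG.cj g V) := by
    rw [← cj_PP, ← cj_cent g (BG.cj g V), ← cj_inf, ← cj_sup]; exact cj_mono g l
  generalize BG.cj g (BG.cj g V) = X, BG.cj g U₂ = Y at *
  generalize BG.cj g V = U at *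
  have vn := h.vc.trans (cent_le_norm U)
  have iv : ∀ {Z}, Arr U Z → ∀ a ∈ V, ∀ u ∈ Z, a * u * a⁻¹ ∈ U ⊔ X ∨ a * u * a⁻¹ ∈ U ⊔ Y := fun z a ha u hu =>
    h'.inv_mem' k' n' l' (conj_mem_of_norm (h.vn ha) (z.le_P hu)) (by
      rw [show a * u * a⁻¹ * (a * u * a⁻¹) = a * (u * u) * a⁻¹ by group, z.tu.sq hu]; group)
  obtain ⟨x, hx, x1⟩ := h'.exU
  by_cases e : ∃ a ∈ V, a ≠ 1 ∧ a ∈ 𝐍 (U ⊔ X)
  · obtain ⟨a, ha, a1, e⟩ := e
    have c := h.lemL hn h' ha a1 e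
    obtain ⟨y, hy, y1⟩ := k'.exU
    obtain m | m := iv k' a ha y hy
    · exact h'.ncomm k' n' hx x1 hy y1 (h'.abW.mul_comm (by simpa [mul_assoc] using conj_mem_of_norm' e m)
        (mem_sup_right hx))
    have c' := h.lemL hn k' ha a1 (mem_norm_of_cj_le (k'.nrm' k'.c (vn ha) hy y1 m))
    refine n1 (h.vp hn hv (h.tu.f4 (h.vc hv) fun z hz => ?_))
    obtain ⟨y, hy, d, hd, rfl⟩ := h'.dec k' n' hz
    rw [commutatorElement_eq_one_iff_mul_comm.2 (mem_cent1.1 (le_cent1_iff.2 (mul_mem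
      (cent_symm c' (mem_sup_right hy)) (cent_symm c (l' hd))) hv))]
    exact one_mem _
  push Not at e
  have sw : ∀ a ∈ V, a ≠ 1 → BG.cj a (U ⊔ X) = U ⊔ Y := fun a ha a1 => eq_of_card_eq
    (k'.nrm' h'.c (vn ha) hx x1 ((iv h' a ha x hx).resolve_left fun m =>
      e a ha a1 (mem_norm_of_cj_le (h'.nrm' h'.c (vn ha) hx x1 m)))) (by rw [card_cj, h'.cardW, k'.cardW])
  have two : ∀ a ∈ V, a ≠ 1 → ∀ b ∈ V, b ≠ 1 → a = b := fun a ha a1 b hb b1 => by_contra fun ne =>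
    e _ (mul_mem (inv_mem hb) ha) (fun e => ne (inv_mul_eq_one.1 e).symm)
      (cj_eq_self.1 (by rw [← cj_cj, sw a ha a1, ← sw b hb b1, cj_inv_cj]))
  have two' : ∀ {Z}, Conj V Z → ∀ a ∈ Z, a ≠ 1 → ∀ b ∈ Z, b ≠ 1 → a = b := by
    rintro _ ⟨g, rfl⟩ a ha a1 b hb b1
    obtain ⟨a, ha', rfl⟩ := mem_cj_iff.1 ha
    obtain ⟨b, hb', rfl⟩ := mem_cj_iff.1 hb
    rw [two a ha' (by simpa using a1) b hb' (by simpa using b1)]
  obtain ⟨u, hu, u1⟩ := h.exU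
  obtain ⟨y, hy, y1⟩ := k.exU
  have pm := mul_mem (k.le_P hy) (h.le_P hu)
  have nc := h.ncomm k n hu u1 hy y1
  have := h.tv.mx (V ⊔ zpowers (y * u)) le_sup_left ⟨sup_le (le_norm_self V) (zpowers_le.2 ((PP_n V).le pm)),
    le_norm_of_cj_le fun m hm => by
      rw [cj_sup, cj_of_norm hm, cj_zpowers]
      refine sup_le le_sup_left (zpowers_le.2 ?_)
      obtain ⟨y', hy', c, hc, e⟩ := h.dec k n ((PP_n V).conj_mem hm pm)
      obtain ⟨v', hv', u', hu', rfl⟩ := h.memW.1 (l hc)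
      have : y' * (v' * u') * (y' * (v' * u')) ≠ 1 := fun e' => nc (by
        rw [e, show m * (y * u) * m⁻¹ * (m * (y * u) * m⁻¹) = m * (y * u * (y * u)) * m⁻¹ by group,
          conj_eq_one_iff, mul_eq_one_iff_eq_inv, mul_inv_rev, h.tu.inv hu, k.tu.inv hy] at e'
        exact e')
      rw [← e, two' k.c y' hy' (fun e => this (by
          rw [e, one_mul, ← pow_two]; exact (h.tv.ab.sup h.tu.ab h.vc).pow _ (l hc))) y hy y1,
        two' h.c u' hu' (fun e => this (by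
          rw [e, mul_one, ← pow_two]
          exact (k.tv.ab.sup k.tu.ab k.vc).pow _ (mul_mem (mem_sup_right hy') (mem_sup_left hv')))) u hu u1,
        ← mul_assoc, ← h.tv.vc hv' (k.le_P hy), mul_assoc]
      exact mul_mem (mem_sup_left hv') (mem_sup_right (mem_zpowers _))⟩
    (h.tv.ab.abel.sup (abel_zpowers _) (cent_symm (zpowers_le.2 pm.2)))
  have := mul_mem (mem_sup_left (this.le (mem_sup_right (mem_zpowers _))) : _ ∈ V ⊔ U)
    (mem_sup_right (inv_mem hu))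
  exact nc (h.abW.mul_comm (by simpa using this) (mem_sup_right hu))

theorem symm : Arr U V := ⟨h.tu, h.c.symm, h.ne.symm, h.symm_le⟩

theorem exV : ∃ v ∈ V, v ≠ 1 := h.symm.exU

theorem trans_V (hv : v ∈ V) (n : v ≠ 1) (hx : x ∈ V) (n' : x ≠ 1) : ∃ g ∈ 𝐍 V, g * v * g⁻¹ = x := by
  obtain ⟨u, hu, u1⟩ := h.exU
  obtain ⟨a, -, e1⟩ := h.symm.conj_in hv n hu
  obtain ⟨b, -, e2⟩ := h.conj_in hu u1 hv
  obtain ⟨c, -, e3⟩ := h.conj_in hu u1 hx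
  obtain ⟨d, -, e4⟩ := h.symm.conj_in hx n' hu
  rw [← h.tv.vc hv (h.le_P hu), ← e2] at e1
  rw [← h.tv.vc hx (h.le_P hu), ← e3] at e4
  have e : d⁻¹ * c * b⁻¹ * a * v * (d⁻¹ * c * b⁻¹ * a)⁻¹ = x :=
    calc _ = d⁻¹ * c * b⁻¹ * (a * v * a⁻¹) * b * c⁻¹ * d := by group
      _ = d⁻¹ * (c * u * c⁻¹) * d := by rw [e1]; group
      _ = x := by rw [← e4]; group
  exact ⟨_, h.tv.ti _ v hv n (e ▸ hx), e⟩

theorem P_eq : PP V = QQ V := by
  obtain ⟨v, hv, n⟩ := h.exV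
  have vq := h.tv.le_P.trans inf_le_left
  obtain ⟨z, ⟨z1, z2⟩, z3⟩ := exists_mem_ne_one ((O_pi {2} (𝐍 V)).nil.inf_cent_ne_bot
    ((normalIn_norm V).of_le vq (QQ_n V).le) fun e => n (e.le hv))
  refine inf_eq_left.2 (cent_symm fun x hx => ?_)
  by_cases e : x = 1
  · exact e ▸ one_mem _
  obtain ⟨g, hg, rfl⟩ := h.trans_V z1 z3 hx e
  exact conj_mem_of_norm (norm_le_norm_cent _ ((QQ_n V).norm hg)) z2

theorem der_eq : ⁅PP V, PP V⁆ = V := h.tv.der.antisymm fun v hv => by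
  obtain ⟨U₂, k, n⟩ := h.exists_opp
  obtain ⟨u, hu, u1⟩ := h.exU
  obtain ⟨y, hy, rfl⟩ := h.surj k n hu u1 hv
  exact commutator_mem_commutator (k.le_P hy) (h.le_P hu)

theorem Z_eq : 𝐙 (PP V) = V :=
  le_antisymm (fun _ hx => h.tv.zp hx.1 hx.2) (le_inf h.tv.le_P (cent_symm inf_le_right))

theorem Phi_eq : 𝚽 (PP V) = V :=
  le_antisymm ((PP_pi V).Phi_le_iff.2 ⟨h.tv.der, fun x hx => pow_two x ▸ h.tv.sqP hx⟩)
    (h.der_eq.ge.trans (PP_pi V).der_le_Phi)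

theorem uniq (hw : w ∈ V ⊔ U) (n : w ≠ 1) : ∃! X, Conj V X ∧ X ≤ V ⊔ U ∧ w ∈ X := by
  obtain ⟨X, c, m⟩ : ∃ X, Conj V X ∧ w ∈ X := by
    by_cases e : w ∈ V
    · exact ⟨V, .refl V, e⟩
    obtain ⟨y, -, e⟩ := h.part hw e
    exact ⟨_, conj_cj_right.2 h.c, e⟩
  exact ⟨X, ⟨c, h.g4' c m hw n, m⟩, fun Y k => (h.tv.conj c).eq (c.symm.trans k.1) m k.2.2 n⟩

theorem nH : PP V ⊔ PP U ≤ 𝐍 (V ⊔ U) := sup_le h.nW (sup_comm U V ▸ h.symm.nW)

theorem mv (hx : x ∈ PP V ⊔ PP U) (n : x ∉ 𝐍 V) : ∃ y ∈ PP V, BG.cj x V = BG.cj y U := by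
  obtain ⟨v, hv, n1⟩ := h.exV
  exact (h.g4 (conj_cj V x) (conj_mem_cj.2 hv) (conj_mem_of_norm (h.nH hx) (mem_sup_left hv))
    (by simpa using n1)).resolve_left fun e => n (cj_eq_self.1 e)

theorem gen (hx : x ∈ PP V ⊔ PP U) (n : x ∉ 𝐍 V) : PP V ⊔ BG.cj x (PP V) = PP V ⊔ PP U := by
  obtain ⟨y, hy, e⟩ := h.mv hx n
  rw [cj_PP, e, ← cj_PP, ← cj_of_norm (le_norm_self _ (mem_sup_left hy) : y ∈ 𝐍 (PP V ⊔ PP U)), cj_sup,
    cj_of_norm (le_norm_self _ hy)]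

theorem not_le : ¬ PP V ⊔ PP U ≤ 𝐍 V := fun e => by
  obtain ⟨v, hv, n⟩ := h.exV
  obtain ⟨u, hu, u1⟩ := h.exU
  obtain ⟨y, hy, k⟩ := h.symm.conj_in hv n hu
  exact u1 (h.one (by simpa [k] using mul_mem (conj_mem_of_norm (e (mem_sup_right hy)) hv) (inv_mem hv)) hu)

theorem ex_cj : ∃ x ∈ PP V ⊔ PP U, BG.cj x V = U := by
  obtain ⟨x, hx, n⟩ := SetLike.not_le_iff_exists.1 h.not_le
  obtain ⟨y, hy, e⟩ := h.mv hx n
  exact ⟨y⁻¹ * x, mul_mem (inv_mem (mem_sup_left hy)) hx, by rw [← cj_cj, e, cj_inv_cj]⟩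

theorem wc (hw : w ∈ V ⊔ U) (c : w ∈ 𝐂 (PP V ⊔ PP U)) : w = 1 :=
  h.one (h.tv.zp (h.W_le hw) (cent_anti le_sup_left c))
    (h.tu.zp (h.symm.W_le (sup_comm V U ▸ hw)) (cent_anti le_sup_right c))

open scoped MatrixGroups in
theorem sl2 [((𝐂 (V ⊔ U)).subgroupOf (PP V ⊔ PP U)).Normal] :
    ∃ (F : Type) (_ : Field F) (_ : Fintype F), Fintype.card F = ♯V ∧
      Nonempty (↥(PP V ⊔ PP U) ⧸ (𝐂 (V ⊔ U)).subgroupOf (PP V ⊔ PP U) ≃* SL(2, F)) := by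
  have vc : V ≤ 𝐂 (PP V) := cent_symm inf_le_right
  obtain ⟨x, hx, ex⟩ := h.ex_cj
  obtain ⟨F, _, _, ρ, ψ, k, -⟩ := FF.exists_natOn (W := V ⊔ U) (P := PP V ⊔ PP U) (A := PP V) (Q := ⊥)
    (M := (PP V ⊔ PP U) ⊓ 𝐍 V) h.abW h.nH bot_le
    ⟨sup_le (le_inf le_sup_left (PP_n V).le) bot_le, inf_lt_left.2 h.not_le, fun X a b =>
      le_inf b.le fun y hy => by_contra fun n => b.not_ge ((h.gen (b.le hy) n).ge.trans
        (sup_le (le_sup_left.trans a) (cj_le_of_norm (le_norm_self _ hy) (le_sup_left.trans a))))⟩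
    (fun y hy n => (sup_bot_eq _).trans (h.gen hy fun e => n ⟨hy, e⟩))
    (fun a ha c => by
      have : a ∈ 𝐍 U := by rw [← ex, ← cj_norm]; exact cj_mono x inf_le_right (c x hx)
      refine zpowers_le.1 (le_cent_sup (zpowers_le.2 ha.2) (zpowers_le.2 (mem_cent.2 fun u hu => ?_)))
      exact (commutatorElement_eq_one_iff_mul_comm.1 (h.one (h.tv.cm ha (h.le_P hu))
        (mul_mem (conj_mem_of_norm this hu) (inv_mem hu)))).symm)
    ((commutator_mono h.W_le le_rfl).trans (h.tv.der.trans vc))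
    (fun X a b c => b.antisymm (sup_le ((le_inf le_sup_left vc).trans a)
      (ex ▸ cj_le_of_norm (c hx) ((le_inf le_sup_left vc).trans a))))
    (by
      obtain ⟨U₂, k, n⟩ := h.exists_opp
      obtain ⟨u, hu, u1⟩ := h.exU
      rw [h.cardW, ← mul_assoc]
      refine Nat.mul_le_mul ?_ (card_le (le_inf le_sup_left vc))
      rw [← card_conj k.c, ← card_sup_of_inf_bot (.inr (k.le_P.trans (norm_inf_cent (le_norm_self _) h.nW)))
        (eq_bot_of_forall fun y hy => by_contra fun y1 =>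
          h.ncomm k n hu u1 hy.2 y1 (mem_cent.1 hy.1.2 u (mem_sup_right hu)).symm)]
      exact card_le (sup_le inf_le_left k.le_P))
    (fun e => let ⟨v, hv, n⟩ := h.exV; n (h.wc (mem_sup_left hv) (e ⟨mem_sup_left hv, vc hv⟩)))
  have c := k.card_V'
  rw [h.cardW, eq_bot_of_forall (H := (V ⊔ U) ⊓ 𝐂 (PP V ⊔ PP U)) fun w hw => h.wc hw.1 hw.2, card_bot, mul_one,
    ← pow_two, Nat.card_eq_fintype_card (α := F)] at c
  have e : (𝐂 (V ⊔ U)).subgroupOf (PP V ⊔ PP U) = k.hom.ker := Subgroup.ext fun g =>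
    ⟨k.ρ_eq_one_of_cent g.2, fun e => mem_cent.2 fun w hw => (commutatorElement_eq_one_iff_mul_comm.1
      (h.wc (mul_mem (k.conj_mem g.2 hw) (inv_mem hw)) (k.comm_mem g.2 e hw))).symm⟩
  exact ⟨F, _, _, (Nat.pow_left_injective two_ne_zero c).symm, ⟨(QuotientGroup.quotientMulEquivOfEq e).trans
    (QuotientGroup.quotientKerEquivOfSurjective _ k.hom_surj)⟩⟩

end Arr
end CF.Rt.GF
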