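/-
Odd transpositions: connected classes.
-/
import Cfsg.Agent.RI.Od4
import Cfsg.Agent.Transfer.Tate
set_option autoImplicit false
set_option linter.unusedSectionVars false

namespace CF.Rt
open Subgroup Cfsg CF.BG Relation

universe u
variable {G : Type u} [Group G] [Finite G] {D S T : Set G}
variable {a a' b c d e f g k p q r r' s t u v w x y z : G} {H N Q : Subgroup G}

theorem EQ_of_sub (hg : g ∈ normalizer S) (l : ∀ y ∈ S, Commute a y → Commute (g * a * g⁻¹) y) :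
    EQ S a (g * a * g⁻¹) := by
  have : {y | y ∈ S ∧ Commute a y} = {y | y ∈ S ∧ Commute (g * a * g⁻¹) y} :=
    Set.eq_of_subset_of_ncard_le (fun y k => ⟨k.1, l y k.1 k.2⟩) (Set.ncard_le_ncard_of_injOn
      (fun x => g⁻¹ * x * g) (fun x hx => ⟨by simpa using (mem_set_normalizer_iff.1 (inv_mem hg) x).1 hx.1,
        by simpa [mul_assoc] using hx.2.conj g⁻¹⟩) fun x _ y _ e => by simpa using e)
  exact fun y hy => ⟨l y hy, fun k => (this.ge ⟨hy, k⟩).2⟩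

theorem RI.not_mem_QS (h : RI S) (hs : s ∈ S) (hc : c ∈ S) (o : Op s c) : s ∉ QS S := fun m =>
  o.not_mem (h.sq hs) (h.sq hc) (O_pi _ _) (by
    simpa [h.inv hc, mul_assoc] using mul_mem m (conj_mem_of_norm (norm_QS (h.mem_normalizer hc)) m))

theorem RI.norm_QS' (h : RI S) : S ⊆ 𝐍 (QS S) := fun _ k => norm_QS (h.mem_normalizer k)

theorem OT.mem_CD (h : OT D) (ha : a ∈ D) (he : e ∈ EV D a) : e ∈ CD D a :=
  ⟨he.1, ((he.2 a ha).1 (.refl a)).symm⟩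

theorem OT.op_NS (h : OT D) (hz : z ∈ CD D a) (hc : c ∈ CD D a) (o : Op z c) (hg : g ∈ NS (CD D a)) :
    Op (g * z * g⁻¹) c := h.op (NS.mem hg hz).1 hc.1 fun k => h.op_nc hz.1 hc.1 o ((hg.2 z hz c hc).2 k)

namespace OC
variable (h : OC D)
include h

theorem mem_EV (ha : a ∈ D) (hb : b ∈ D) (l : ∀ y ∈ CD D a, Commute b y) : b ∈ EV D a := by
  obtain ⟨g, rfl⟩ := h.cl a ha b hb
  exact ⟨hb, EQ_of_sub (h.mem_norm g) fun y hy k => l y ⟨hy, k⟩⟩

theorem ni (ha : a ∈ D) (hz : z ∈ D) (n : z ∉ EV D a) : ∃ c ∈ CD D a, Op z c := by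
  by_contra m
  exact n (h.mem_EV ha hz fun y hy => h.comm hz hy.1 fun o => m ⟨y, hy, o⟩)

variable (ha : a ∈ D) (hx : x ∈ D) (o : Op a x)
include ha hx o

theorem not_EV (c : Commute z x) : z ∉ EV D a := fun m => h.op_nc ha hx o ((m.2 x hx).2 c)

theorem rep2 (hz : z ∈ CD D a) : z ∈ EV D a ∨ ∃ q ∈ QS (CD D a), Commute (q * z * q⁻¹) x := by
  refine or_iff_not_imp_left.2 fun n => ?_
  obtain ⟨c, hc, o'⟩ := h.ni ha hz.1 n
  exact h.rep' ha hx o hz hc o'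

theorem mem_EV' (hy : y ∈ CD D a) (l : ∀ r ∈ CD D a, Commute r x → Commute y r) : y ∈ EV D a :=
  h.mem_EV ha hy.1 fun z hz => by
    rcases h.rep2 ha hx o hz with k | ⟨q, hq, k⟩
    · exact h.ev_comm k hy
    · exact (((QS_le hq).2 z hz y hy).2 (l _ (NS.mem (QS_le hq) hz) k).symm).symm

theorem FF_comm (hr : r ∈ CD D a) (c : Commute r x) (hg : g ∈ FF D a x) : Commute g r :=
  h.FF_le r (fun _ he => (h.ev_comm he hr).symm) c.symm hg

theorem mem_EV_FF (hy : y ∈ CD D a) (m : y ∈ FF D a x) : y ∈ EV D a :=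
  h.mem_EV' ha hx o hy fun _ hr c => h.FF_comm ha hx o hr c m

theorem mem_NS' (hg : g ∈ FF D a x) (E : g ∈ h.SE a) : g ∈ NS (CD D a) := by
  refine ⟨h.norm_CD E, fun z hz => ?_⟩
  rcases h.rep2 ha hx o hz with k | ⟨q, hq, k⟩
  · exact fun y hy => ⟨fun _ => (h.ev_comm (h.SE_conj E k) hy).symm, fun _ => (h.ev_comm k hy).symm⟩
  · have e := (QS_le hq).2 z hz
    have := (e.conj (h.norm_CD E)).symm
    rw [(h.FF_comm ha hx o (NS.mem (QS_le hq) hz) k hg).mul_inv_cancel] at this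
    exact e.trans this

theorem exists_opp (hr : r ∈ CD D a) (c : Commute r x) : ∃ r' ∈ CD D a, Commute r' x ∧ Op r r' := by
  obtain ⟨c', hc, o'⟩ := h.ni ha hr.1 (h.not_EV ha hx o c)
  obtain ⟨q, hq, k⟩ := h.rep' ha hx o hc hr o'.symm
  exact ⟨_, NS.mem (QS_le hq) hc, k, (h.op_NS hc hr o'.symm (QS_le hq)).symm⟩

/-- equivalence can be checked locally -/
theorem local_EV (hr : r ∈ CD D a) (c : Commute r x) (hs : s ∈ CD D a) (c' : Commute s x)
    (l : ∀ y ∈ CD D a, Commute r y → Commute s y) : s ∈ EV D r := by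
  refine h.mem_EV hr.1 hs.1 fun y hy => h.comm hs.1 hy.1 fun o1 => ?_
  obtain ⟨r', hr', c1, o2⟩ := h.exists_opp ha hx o hr c
  have sr : s ∈ CD D r := ⟨hs.1, (l r hr (.refl r)).symm⟩
  obtain ⟨q, hq, k⟩ := h.rep' hr.1 hr'.1 o2 sr hy o1
  have e := (QS_le hq).2 s sr
  have m := NS.mem (QS_le hq) sr
  generalize q * s * q⁻¹ = u at k e m
  have ua : u ∈ CD D a := ⟨m.1, ((e a ⟨ha, hr.2.symm⟩).1 hs.2.symm).symm⟩
  have l' : ∀ y ∈ CD D a, Commute r y → Commute u y := fun y hy k => (e y ⟨hy.1, k⟩).1 (l y hy k)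
  obtain ⟨c2, hc, o3⟩ := h.ni ha m.1 (h.not_EV ha hx o ((e x ⟨hx, c⟩).1 c'))
  have R := h.ri_CD a
  obtain ⟨v, hv, -, v2⟩ := R.swap hr hc (h.op hr.1 hc.1 fun j => h.op_nc m.1 hc.1 o3 (l' _ hc j))
  obtain ⟨w, hw, -, w2⟩ := R.swap hc ua o3.symm
  have E : w * v * r * (w * v)⁻¹ = u := by rw [← w2, ← v2, mul_inv_rev, R.inv hv, R.inv hw]; group
  exact h.op_nc hr.1 hr'.1 o2 ((EQ_of_sub (mul_mem (R.mem_normalizer hw) (R.mem_normalizer hv))
    (E ▸ l') r' hr').2 (E ▸ k))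

/-- generation by the commuting members and an opposite member -/
theorem gen (dc : ∀ y ∈ D, RC D a y) (l : CD D a ⊆ H) (xH : x ∈ H) : H = ⊤ := by
  by_contra nt
  let A : Set G := {y | ∃ g ∈ H, g * a * g⁻¹ = y}
  have aH : a ∈ H := l ⟨ha, .refl a⟩
  have aA : a ∈ A := ⟨1, one_mem _, by simp⟩
  have AD : ∀ {s}, s ∈ A → s ∈ D ∧ s ∈ H := by
    rintro _ ⟨g, hg, rfl⟩; exact ⟨h.conj g ha, mul_mem (mul_mem hg aH) (inv_mem hg)⟩
  have a1 : ∀ {s y}, s ∈ A → y ∈ D → y ∈ H → y ∉ A → Commute s y := fun {s y} hs hy yH n =>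
    h.comm (AD hs).1 hy fun o => n (by
      obtain ⟨w, hw, w1, w2⟩ := h.swap (AD hs).1 hy o
      obtain ⟨g, hg, rfl⟩ := hs
      exact ⟨w * g, mul_mem ((closure_le _).2 (by rintro _ (rfl | rfl); exacts [(AD ⟨g, hg, rfl⟩).2, yH]) w1)
        hg, by rw [← w2, mul_inv_rev, h.inv hw]; group⟩)
  have a2 : ∀ {s y}, s ∈ A → y ∈ D → Commute s y → y ∈ H := by
    rintro _ y ⟨g, hg, rfl⟩ hy c
    simpa [mul_assoc] using mul_mem (mul_mem hg (l (a := g⁻¹ * y * g⁻¹⁻¹) ⟨h.conj _ hy, by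
      simpa [mul_assoc] using c.conj g⁻¹⟩)) (inv_mem hg)
  have xA : x ∈ A := by_contra fun n => h.op_nc ha hx o (a1 aA hx xH n)
  obtain ⟨z₀, z1, z2, z3⟩ : ∃ z ∈ D, z ∈ H ∧ z ∉ A := by
    by_contra m
    refine nt (eq_top_iff.2 (h.top ▸ (closure_le _).2 fun y hy => (AD (?_ : y ∈ A)).2))
    induction dc y hy with
    | refl => exact aA
    | tail _ k ih => exact by_contra fun j => m ⟨_, k.2.1, a2 (ih k.1) k.2.1 k.2.2.2, j⟩
  obtain ⟨z, hz, zH, zA, y, hy, yH, o1⟩ : ∃ z ∈ D, z ∈ H ∧ z ∉ A ∧ ∃ y ∈ D, y ∉ H ∧ Op z y := by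
    by_contra m
    have : ∀ y, RF D z₀ y → y ∈ H ∧ y ∉ A := fun y k => by
      induction k with
      | refl => exact ⟨z2, z3⟩
      | tail _ k ih =>
        have o' := (oddAdj.1 k).2.2
        exact ⟨by_contra fun j => m ⟨_, k.1, ih.1, ih.2, _, k.2.1, j, o'⟩,
          fun j => h.op_nc k.1 k.2.1 o' (a1 j k.1 ih.1 ih.2).symm⟩
    exact (this a (h.fc_of_class h.top (fun a ha b hb => (h.cl a ha b hb).imp fun _ => .symm) ha hx o
      _ z1 _ ha)).2 aA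
  have o2 := h.op ha hy fun c => yH (l ⟨hy, c⟩)
  obtain ⟨b, lb⟩ := h.line ha
  obtain ⟨g, hg, e, od, k⟩ := h.exists_odd lb hy o2
  have m := h.mem_NS lb hy o2 hg (e ▸ h.ln_eq lb) od
  have hz' : z ∈ CD D a := ⟨hz, a1 aA hz zH zA⟩
  have ni : ∀ {s}, s ∈ CD D a → s ∉ A → ∃ c ∈ CD D a, c ∉ A ∧ Op s c := fun {s} hs n => by
    obtain ⟨c, hc, o'⟩ := h.ni ha hs.1 (h.not_EV ha hx o (a1 xA hs.1 (l hs) n).symm)
    exact ⟨c, hc, fun j => h.op_nc hs.1 hc.1 o' (a1 j hs.1 (l hs) n).symm, o'⟩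
  have bx : ∀ {s}, s ∈ CD D a → s ∉ A → Commute x (g * s * g⁻¹) := fun {s} hs n => by
    obtain ⟨c, hc, n', o'⟩ := ni hs n
    have hs' := NS.mem m hs
    exact a1 xA hs'.1 (l hs') fun j => h.op_nc hs'.1 hc.1 (h.op_NS hs hc o' m) (a1 j hc.1 (l hc) n')
  obtain ⟨a', ha', y', hy', -, c1, -, c2⟩ := h.t2 lb hz' hy o2
  have E : g * a' * g⁻¹ * (g * z * g⁻¹ * (g * y' * g⁻¹)) = a' * (z * y') := by
    rw [← mul_assoc a', ← (c2 g hg).mul_inv_cancel]; group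
  have ha'' := h.SE_conj (show EQ D a (g * a * g⁻¹) from e ▸ h.ln_eq lb) ha'
  by_cases j : y' ∈ A
  · obtain ⟨c, hc, n', o'⟩ := ni hz' zA
    have c3 := (a1 j hc.1 (l hc) n').symm
    have c4 := ((m.2 _ hy' c hc).1 c3.symm).symm
    have c5 := (m.2 _ hy' z hz').1 c1
    refine h.op_nc hz hc.1 o' (h.comm_of_mul' hc.1 (NS.mem m hz').1 hz (fun q => h.op_nc hz hy o1
      (k z hz' (show z * g = g * z by rw [← mul_inv_eq_iff_eq_mul.1 q]))) ?_).symm
    refine comm_cancel' (b := g * y' * g⁻¹) (comm_cancel (a := g * a' * g⁻¹) ?_ (h.ev_comm ha'' hc)) c4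
    rw [mul_assoc _ z, ← c5.eq, ← mul_assoc, ← mul_assoc, mul_assoc _ _ (g * y' * g⁻¹), E, ← c1.eq,
      mul_assoc, mm' (h.sq hz)]
    exact (h.ev_comm ha' hc).mul_right c3
  · refine h.op_nc ha'.1 hx (h.op_eq ha ha'.1 ha'.2 hx o) (h.comm_of_mul hx ha'.1 ha''.1 (fun q =>
      h.op_nc ha'.1 hy (h.op_eq ha ha'.1 ha'.2 hy o2) (k a' (h.mem_CD ha ha')
        (show a' * g = g * a' by rw [← mul_inv_eq_iff_eq_mul.1 q.symm]))) ?_).symm
    refine comm_cancel' ?_ ((bx hz' zA).mul_right (bx hy' j))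
    rw [mul_assoc, E, mm (h.sq ha'.1)]
    exact (a1 xA hz zH zA).mul_right (a1 xA hy'.1 (l hy') j)

end OC

theorem OC.ln_of_EV (h : OC D) (dc : ∀ a ∈ D, ∀ y ∈ D, RC D a y) (O : 𝐎 {2} (⊤ : Subgroup G) = ⊥)
    (Z : center G = ⊥) (ha : a ∈ D) (he : e ∈ EV D a) (hf : f ∈ EV D a) (n : e ≠ f) : Ln D e f := by
  have c := h.ev_comm hf (h.mem_CD ha he)
  have q2 : e * f * (e * f) = 1 := cm_eq_one (h.sq he.1) (h.sq hf.1) c
  have cq : ∀ y ∈ CD D a, Commute y (e * f) := fun y hy => (h.ev_comm he hy).mul_right (h.ev_comm hf hy)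
  by_cases k : ∀ y ∈ D, Commute y (e * f * y * (e * f))
  · refine absurd (eq_inv_of_mul_eq_one_left (mem_bot.1 (Z ▸ h.cent_of_NS O ⟨h.mem_norm _, fun y hy => ?_⟩)))
      (by rwa [h.inv hf.1])
    by_cases j : Commute a y
    · rw [(cq y ⟨hy, j⟩).symm.mul_inv_cancel]; exact .refl _ _
    obtain ⟨w, hw, -, rfl⟩ := h.swap he.1 hy (h.op_eq ha he.1 he.2 hy (h.op ha hy j))
    refine h.EQ_of_cent ⟨hy, .refl _ _⟩ (f := w * f * w) (by
      simpa [h.inv hw] using h.EV_conj (⟨hf.1, he.2.symm.trans hf.2⟩ : f ∈ EV D e) w) (by simpa using n) ?_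
    rw [show w * e * w * (w * f * w) = w * (e * f) * w by simp [mul_assoc, mm (h.sq hw)]]
    have := (k w hw).eq
    generalize e * f = q at *
    rw [Commute, SemiconjBy]
    calc _ = q * (w * (q * w * q)) * q := by simp [mul_assoc, q2]
      _ = _ := by rw [this]; simp [mul_assoc, mm q2]
  push Not at k
  obtain ⟨x, hx, k⟩ := k
  have o := h.op ha hx fun j => k (by rw [← (cq x ⟨hx, j⟩).eq, mm' q2])
  obtain ⟨y, hy, m, c1, c2⟩ := h.dihed hx q2 k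
  have hy' : y ∈ EV D a := h.mem_EV_FF ha hx o ⟨hy, (he.2 y hy).2 (h.comm_of_mul hy he.1 hf.1 n c1).symm⟩
    ((closure_le _).2 (by
      rintro _ (rfl | rfl)
      exacts [subset_closure (.inr rfl), mul_mem (subset_closure (.inl he)) (subset_closure (.inl hf))]) m)
  have := h.gen ha hx o (dc a ha) (H := 𝐂₁ (e * f * y)) (fun s hs =>
    mem_cent1.2 ((cq s hs).mul_right (h.ev_comm hy' hs))) (mem_cent1.2 c2)
  have : e * f * y = 1 := mem_bot.1 (Z ▸ mem_center_iff.2 fun g => mem_cent1.1 (this ▸ mem_top g))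
  exact ⟨he.1, hf.1, c, by rwa [eq_inv_of_mul_eq_one_left this, h.inv hy]⟩

/-- the computation in the Frobenius group of order twenty -/
theorem OT.f20 (h : OT D) (hs : s ∈ EV D a) (ar : a ∈ CD D u) (sr : s ∈ CD D u) (tr : t ∈ CD D u)
    (zr : z ∈ CD D u) (hz : z ∈ CD D a) (hc : c ∈ CD D a) (o : Op z c) (m : s * z ∈ QS (CD D u))
    (o' : Op s t) (e5 : (s * t) ^ 5 = 1) (hr : r⁻¹ ∈ NS (CD D a)) (rs : Commute r s) (rz : Commute r z)
    (e2 : r⁻¹ * (s * t) * r = (s * t) ^ 2) : False := by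
  have R := h.ri_CD u
  have s2 := R.sq sr
  have sz := (h.ev_comm hs hz).symm
  have n2 : s * z * (s * z) = 1 := cm_eq_one s2 (R.sq zr) sz
  have sn : Commute s (s * z) := (Commute.refl s).mul_right sz
  have rn : Commute r (s * z) := rs.mul_right rz
  have ez : z = s * (s * z) := (mm s2 z).symm
  have oz : Op z t := h.op zr.1 tr.1 (R.not_comm_of_mem sr tr o' zr (O_pi _ _) R.norm_QS' m)
  have i := CF.Invol.conj_pow_of_inverts (CF.Invol.left_inverts_mul s2 (R.sq tr))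
  have mw := R.mul_pow_mem sr tr
  have rho : s * t ∈ 𝐍 (QS (CD D u)) := mul_mem (R.norm_QS' sr) (R.norm_QS' tr)
  have et : t = s * (s * t) := (mm s2 t).symm
  rw [inv_eq s2] at i
  generalize s * z = n at *
  generalize s * t = ρ at *
  let N : ℕ → G := fun j => ρ ^ j * n * (ρ ^ j)⁻¹
  have mN : ∀ j, N j ∈ QS (CD D u) := fun j => conj_mem_of_norm (pow_mem rho j) m
  have N2 : ∀ j, N j * N j = 1 := fun j => by simp [N, mul_assoc, mm n2]
  have N5 : ∀ j, N (j + 5) = N j := fun j => by simp [N, pow_add, e5]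
  have N0 : N 0 = n := by simp [N]
  have NN : ∀ j k, ρ ^ j * N k * (ρ ^ j)⁻¹ = N (j + k) := fun j k => by simp [N, pow_add, mul_assoc]
  have sN : ∀ j, s * N j = N (4 * j) * s := fun j => by
    have : (ρ ^ j)⁻¹ = ρ ^ (4 * j) := inv_eq_of_mul_eq_one_right (by
      rw [← pow_add, show j + 4 * j = 5 * j by ring, pow_mul, e5, one_pow])
    simp only [N, ← this, inv_inv]
    rw [show s * (ρ ^ j * n * (ρ ^ j)⁻¹) = s * ρ ^ j * s * n * (s * ρ ^ j * s)⁻¹ * s by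
      simp [mul_assoc, mm s2, sn.left_comm, inv_eq s2, s2], i, inv_inv]
  have rN : ∀ j, r⁻¹ * N j = N (2 * j) * r⁻¹ := fun j => by
    simp only [N, pow_mul, ← e2, show ∀ x, (r⁻¹ * ρ * r) ^ x = r⁻¹ * ρ ^ x * r from
      fun x => by simpa using conj_pow (a := r⁻¹) (b := ρ) (i := x)]
    simp [mul_assoc, rn.left_comm]
  have c0 : ∀ j, Commute n (N j) := fun j => by
    have k := (NS.comm (QS_le m) (mw j)).eq
    have w2 := R.sq (mw j)
    have : N j = s * (s * ρ ^ j * n * (s * ρ ^ j)) * s := by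
      simp only [N, ← i j]; simp [mul_assoc, mm s2]
    rw [this]
    rw [inv_eq n2] at k
    generalize s * ρ ^ j = w at *
    refine (sn.symm.mul_right ?_).mul_right sn.symm
    rw [Commute, SemiconjBy]
    calc _ = n * w * n * w := by group
      _ = _ := by rw [← k]; group
  have cc : ∀ j k, j < k → N k * N j = N j * N k := fun j k l => by
    obtain ⟨k, rfl⟩ := Nat.exists_eq_add_of_lt l
    have := (c0 (k + 1)).symm.conj (ρ ^ j)
    rwa [NN, ← add_assoc] at this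
  have cc' : ∀ j k, j < k → ∀ x, N k * (N j * x) = N j * (N k * x) := fun j k l x => by
    rw [← mul_assoc, cc j k l, mul_assoc]
  have sN' : ∀ j x, s * (N j * x) = N (4 * j) * (s * x) := fun j x => by rw [← mul_assoc, sN, mul_assoc]
  have rN' : ∀ j x, r⁻¹ * (N j * x) = N (2 * j) * (r⁻¹ * x) := fun j x => by rw [← mul_assoc, rN, mul_assoc]
  have N2' : ∀ j x, N j * (N j * x) = x := fun j => mm (N2 j)
  have a8 : N 8 = N 3 := N5 3
  have a12 : N 12 = N 2 := (N5 7).trans (N5 2)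
  have a16 : N 16 = N 1 := (N5 11).trans ((N5 6).trans (N5 1))
  have cs : Commute s (N 0 * N 1 * N 2 * N 3 * N 4) := by
    simp [Commute, SemiconjBy, mul_assoc, sN, sN', a8, a12, a16, cc, cc']
  have cp : Commute ρ (N 0 * N 1 * N 2 * N 3 * N 4) := by
    have := fun k => NN 1 k
    simp only [pow_one, mul_inv_eq_iff_eq_mul] at this
    have this' : ∀ k x, ρ * (N k * x) = N (1 + k) * (ρ * x) := fun k x => by rw [← mul_assoc, this, mul_assoc]
    simp [Commute, SemiconjBy, mul_assoc, this, this', show N 5 = N 0 from N5 0, cc, cc']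
  have pi : N 0 * N 1 * N 2 * N 3 * N 4 = 1 := h.lemB zr.1 tr.1 oz
    (by simp [mul_assoc, cc, cc', N2, N2']) (ez ▸ cs.mul_left (by
      rw [← N0]; simp [Commute, SemiconjBy, mul_assoc, cc, cc', N2, N2'])) (et ▸ cs.mul_left cp) (by
      have := h.conj (N 1 * N 2) sr.1
      rw [inv_eq (by simp [mul_assoc, cc, cc', N2, N2'] : N 1 * N 2 * (N 1 * N 2) = 1)] at this
      rw [ez, ← N0]
      simpa [mul_assoc, sN, sN', a8, a12, a16, cc, cc', N2, N2'] using this)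
  have hp := NS.mem (QS_le (mN 1)) sr
  have := (h.ri_CD a).mul_mem_QS hr ⟨hp.1, (((QS_le (mN 1)).2 s sr a ar).1
    ((hs.2 a ar.1).1 (.refl a))).symm⟩
  refine (h.ri_CD a).not_comm_of_mem hz hc o (h.mem_CD ar.1 hs) (O_pi _ _) (h.ri_CD a).norm_QS' ?_
    (h.ev_comm hs hc).symm
  rw [ez, mul_assoc, ← sn.eq, mm s2, ← N0, eq_inv_of_mul_eq_one_left (by simpa only [mul_assoc] using pi :
    N 0 * (N 1 * (N 2 * (N 3 * N 4))) = 1), inv_eq (by simp [mul_assoc, cc, cc', N2, N2'])]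
  simpa [inv_eq (N2 1), mul_assoc, rN, rN', rs.inv_left.left_comm, sN, sN', a8, a12, a16, cc, cc', s2,
    mm s2] using this

theorem OC.no_sz (h : OC D) (dc : ∀ a ∈ D, ∀ y ∈ D, RC D a y) (O : 𝐎 {2} (⊤ : Subgroup G) = ⊥)
    (Z : center G = ⊥) (ha : a ∈ D) (hx : x ∈ D) (o : Op a x) (hs : s ∈ EV D a) (ht : t ∈ D)
    (tF : t ∈ FF D a x) (rF : r ∈ FF D a x) (rs : Commute r s) (p : PiElt {2} r) (o' : Op s t)
    (e5 : (s * t) ^ 5 = 1) (e2 : r⁻¹ * (s * t) * r = (s * t) ^ 2) : False := by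
  have eF : ∀ {e}, e ∈ EV D a → e ∈ FF D a x := fun k => subset_closure (.inl k)
  have xF : x ∈ FF D a x := subset_closure (.inr rfl)
  obtain ⟨u, hu, ux, q, hq, nq⟩ : ∃ u ∈ CD D a, Commute u x ∧ ∃ q ∈ QS (CD D a), ¬ Commute q u := by
    by_contra m
    obtain ⟨e, he, c⟩ := h.near ha hx o fun k => h.op_nc ha hx o (k a ha x (dc a ha x hx))
    have := h.gen ha hx o (dc a ha) (H := 𝐍 (FF D a x)) (fun z hz => ?_) (le_normalizer xF)
    · obtain ⟨g, rfl⟩ := h.cl a ha e he.1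
      exact h.not_EV ha hx o c (h.mem_EV_FF ha hx o he
        (conj_mem_of_norm (this ▸ mem_top g) (eF ⟨ha, .refl _ _⟩)))
    rcases h.rep2 ha hx o hz with k | ⟨q, hq, k⟩
    · exact le_normalizer (eF k)
    · have : Commute q (q * z * q⁻¹) := by_contra fun j => m ⟨_, NS.mem (QS_le hq) hz, k, q, hq, j⟩
      have e : q * z * q⁻¹ = z := by simpa [mul_assoc] using congrArg (fun y => q⁻¹ * y) this.eq
      exact cent_le_norm _ (mem_cent.2 fun g hg => (h.FF_comm ha hx o hz (e ▸ k) hg).eq)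
  have FC : FF D a x ≤ 𝐂₁ u := fun g hg => mem_cent1.2 (h.FF_comm ha hx o hu ux hg)
  have FN : ∀ {g}, g ∈ FF D a x → g ∈ normalizer (CD D u) := fun {g} hg => h.norm_CD (by
    rw [(h.FF_comm ha hx o hu ux hg).mul_inv_cancel]; exact .refl _ _)
  have le : FF D a x ⊓ h.SE a ≤ NS (CD D a) := fun g hg => h.mem_NS' ha hx o hg.1 hg.2
  obtain ⟨S, hS⟩ := exists_syl 2 (FF D a x ⊓ h.SE a)
  have pi : PiGrp {2} (QS (CD D a) ⊔ S) := (O_pi _ _).sup hS.pi
    (.inr fun g hg => norm_QS (le (hS.le hg)).1)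
  obtain ⟨g, ⟨g1, g2⟩, g3⟩ := SetLike.exists_of_lt (pi.nil.lt_inf_norm (H := (QS (CD D a) ⊔ S) ⊓ 𝐂₁ u)
    (inf_le_left.lt_of_ne fun e => nq (mem_cent1.1 (e.ge (mem_sup_left hq)).2)))
  have gN : g ∈ NS (CD D a) := sup_le (O_le _ _) (hS.le.trans le) g1
  have hz := NS.mem gN hu
  have E := gN.2 u hu
  have m := (h.ri_CD a).mul_mem_QS gN hu
  have n : u ≠ g * u * g⁻¹ := fun e => g3 ⟨g1, mem_cent1.2 (mul_inv_eq_iff_eq_mul.1 e.symm)⟩
  have Sz : ∀ k ∈ S, Commute k (g * u * g⁻¹) := fun k hk => by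
    simpa [mul_assoc] using Commute.conj (mem_cent1.1 (conj_mem_of_norm' g2
      ⟨mem_sup_right hk, FC (hS.le hk).1⟩).2) g
  generalize g * u * g⁻¹ = z at *
  obtain ⟨u', hu', ux', o1⟩ := h.exists_opp ha hx o hu ux
  have zu : z ∈ CD D u := ⟨hz.1, ((E u hu).1 (.refl u)).symm⟩
  have o2 : Op z x := h.op hz.1 hx fun c => by
    have k := h.local_EV ha hx o hu ux hz c fun y hy => (E y hy).1
    have l := h.ln_of_EV dc O Z hu.1 ⟨hu.1, .refl _ _⟩ k n
    exact (h.ri_CD a).not_mem_QS ⟨l.m, hu.2.mul_right hz.2⟩ hu'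
      (h.op_eq hu.1 l.m (h.ln_eq (l.third h.toRI)) hu'.1 o1) m
  have au : a ∈ CD D u := ⟨ha, hu.2.symm⟩
  have xu : x ∈ CD D u := ⟨hx, ux⟩
  obtain ⟨q', hq', k⟩ := h.rep' hu.1 hu'.1 o1 zu xu o2
  have eu := NS.mem (QS_le hq') zu
  have E' := (QS_le hq').2 z zu
  have m' := (h.ri_CD u).mul_mem_QS (QS_le hq') zu
  generalize q' * z * q'⁻¹ = e at *
  have he : e ∈ EV D a := h.local_EV hu.1 hu'.1 o1 au hu'.2 eu k fun y hy c =>
    (E' y hy).1 ((E y ⟨hy.1, c⟩).1 hy.2)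
  have Se : ∀ k ∈ S, Commute k e := fun k hk => by_contra fun j => by
    have k1 := h.SE_conj (hS.le hk).2 he
    have l := h.ln_of_EV dc O Z ha he k1 fun e => j (mul_inv_eq_iff_eq_mul.1 e.symm)
    refine (h.ri_CD u).not_mem_QS ⟨l.m, (h.ev_comm he hu).mul_right (h.ev_comm k1 hu)⟩ xu
      (h.op_eq he.1 l.m (h.ln_eq (l.third h.toRI)) hx (h.op_eq ha he.1 he.2 hx o)) ?_
    have := mul_mem (inv_mem m') (conj_mem_of_norm (norm_QS (FN (hS.le hk).1)) m')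
    rw [← mul_assoc k, (Sz k hk).eq] at this
    simpa [mul_assoc, h.inv he.1] using this
  obtain ⟨v, hv, v1, v2⟩ := h.swap he.1 hx (h.op_eq ha he.1 he.2 hx o)
  obtain ⟨w, hw, w1, w2⟩ := h.swap hx hs.1 (h.op_eq ha hs.1 hs.2 hx o).symm
  have cl : ∀ {s t}, s ∈ FF D a x → t ∈ FF D a x → closure {s, t} ≤ FF D a x := fun hs ht =>
    (closure_le _).2 (by rintro _ (rfl | rfl) <;> assumption)
  have k1 : w * v * e * (w * v)⁻¹ = s := by rw [← w2, ← v2, mul_inv_rev, h.inv hv, h.inv hw]; group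
  have se : ∀ {k}, k * e * k⁻¹ = s → k ∈ h.SE a := fun {k} j =>
    hs.2.trans (j ▸ (h.EV_conj he k).2.symm)
  have k2 : w * v ∈ FF D a x ⊓ h.SE a := ⟨mul_mem (cl xF (eF hs) w1) (cl (eF he) xF v1), se k1⟩
  generalize w * v = k at k1 k2
  have r1 : r ∈ FF D a x ⊓ h.SE a := ⟨rF, hs.2.trans (rs.mul_inv_cancel ▸ (h.EV_conj hs r).2.symm)⟩
  obtain ⟨c, hc, le'⟩ := ((hS.cj_of_mem k2).of_le (K := FF D a x ⊓ h.SE a ⊓ 𝐂₁ s) (le_inf
    (hS.cj_of_mem k2).le fun y hy => mem_cent1.2 (by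
      simpa [← k1, mul_assoc] using ((Se _ (mem_cj.1 hy)).conj k).eq)) inf_le_left).syl_le_cj
    (zpowers_le.2 ⟨r1, mem_cent1.2 rs⟩) p.zpowers
  have k3 := mul_mem hc.1 k2
  have k4 : c * k * e * (c * k)⁻¹ = s := by
    rw [← (show Commute c s from mem_cent1.1 hc.2).mul_inv_cancel, ← k1]; group
  have k5 : Commute r (c * k * z * (c * k)⁻¹) := by
    simpa [mul_assoc] using (Sz _ (mem_cj.1 (mem_cj.1 (le' (mem_zpowers r))))).conj (c * k)
  generalize c * k = g at k3 k4 k5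
  refine h.f20 hs au ⟨hs.1, h.ev_comm hs hu⟩ ⟨ht, (h.FF_comm ha hx o hu ux tF).symm⟩
    ((mem_set_normalizer_iff.1 (FN k3.1) z).1 zu) (NS.mem (le k3) hz) hu' (h.op_NS hz hu'
      (h.op hz.1 hu'.1 fun j => h.op_nc hu.1 hu'.1 o1 ((E u' hu').2 j)) (le k3)) ?_ o' e5
    (inv_mem (le r1)) rs k5 e2
  rw [← k4, conj_mul, ← (h.ev_comm he hz).eq]
  exact conj_mem_of_norm (norm_QS (FN k3.1)) m'

theorem XS.final (h : XS D a x) (l : Ln D b c) (cl : ∀ s ∈ D, ∀ t ∈ D, s ≠ t → Commute s t → s * t ∈ D) :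
    (∃ (F : Type) (_ : Field F) (_ : Fintype F), Fintype.card F = ♯(closure (EV D a)) ∧
      Nonempty (G ≃* Matrix.ProjectiveSpecialLinearGroup (Fin 2) F)) ∨
    ∃ s ∈ EV D a, ∃ t ∈ D, ∃ r, Commute r s ∧ PiElt {2} r ∧ Op s t ∧ (s * t) ^ 5 = 1 ∧
      r⁻¹ * (s * t) * r = (s * t) ^ 2 := by
  have o : OC D := ⟨h.toOT, h.cl, _, _, l⟩
  have pf := o.perfect
  have ce : ∀ {z}, (∀ y ∈ D, Commute y z) → z ∈ center G := fun {z} k => mem_center_iff.2 fun y =>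
    mem_cent1.1 ((closure_le (𝐂₁ z)).2 (fun y hy => mem_cent1.2 (k y hy)) (h.top ▸ mem_top y))
  have k0 : (mZ G).ker ≤ twoZCore G := (QuotientGroup.ker_mk' _).le
  have k : (mZ G).ker ≤ center G := fun z hz => ce fun y hy => by_contra fun n => by
    have hy' := h.conj z hy
    have m : y * (z * y * z⁻¹) ∈ 𝐎 {2} ⊤ := by
      rw [← pCore_eq Nat.prime_two, ← QuotientGroup.eq_one_iff, ← QuotientGroup.mk'_apply, map_mul,
        map_mul, map_mul, ← mem_center_iff.1 (mem_comap.1 (k0 hz)), map_inv, mul_inv_cancel_right,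
        ← map_mul, h.sq hy, map_one]
    obtain ⟨g, e⟩ := h.cl _ (cl y hy _ hy' (fun e => n (mul_inv_eq_iff_eq_mul.1 e.symm).symm) (h.comm hy hy'
      fun j => j.not_mem (h.sq hy) (h.sq hy') (O_pi _ _) (mul_mem m m))) a h.ha
    have N := normalIn_top.1 (O_normal {2} (⊤ : Subgroup G))
    have m' := e ▸ N.conj_mem _ m g
    exact h.o.not_mem (h.sq h.ha) (h.sq h.hx) (O_pi {2} ⊤) (by
      simpa [h.inv h.hx, mul_assoc] using mul_mem m' (N.conj_mem _ m' x))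
  have inj : ∀ {s t}, s ∈ D → t ∈ D → mZ G s = mZ G t → s = t := fun {s t} hs ht e => by_contra fun n =>
    h.not_cent hs (ce fun y hy => h.comm_of_mul hy hs ht n (mem_center_iff.1 (k (by
      rw [MonoidHom.mem_ker, map_mul, e, ← map_mul, h.sq ht, map_one])) y))
  have ev : ∀ y ∈ D, RC (mZ G '' D) (mZ G a) (mZ G y) → y ∈ EV D a := fun y hy r => by
    have c := o.comm_comp h.ha h.hx (h.not_rc l) a h.ha y (h.rc_of_map _ k0 h.ha r y hy rfl)
    by_cases e : a = y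
    · exact ⟨hy, e ▸ .refl _ _⟩
    · exact ⟨hy, h.ln_eq ⟨h.ha, hy, c, cl a h.ha y hy e c⟩⟩
  have sj : Function.Surjective (mZ G) := QuotientGroup.mk'_surjective _
  obtain ⟨F, _, _, k1, k2, ⟨i⟩, k3, k4⟩ | ⟨k1, _, _, r, r1, ⟨t, ht, rfl⟩, r2, r3, r4, r5⟩ := h.types l
  · have e : closure (CP (mZ G '' D) (mZ G a)) = (closure (EV D a)).map (mZ G) := by
      rw [MonoidHom.map_closure]
      congr 1
      refine Set.ext fun y => ⟨fun r => ?_, ?_⟩
      · obtain ⟨y, hy, rfl⟩ := RC.mem r ⟨a, h.ha, rfl⟩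
        exact ⟨y, ev y hy r, rfl⟩
      · rintro ⟨y, hy, rfl⟩
        exact rc_map _ (rc_of h.ha hy.1 (h.mem_CD h.ha hy).2)
    have cc : ∀ s ∈ EV D a, ∀ t ∈ EV D a, Commute s t := fun s hs t ht => h.ev_comm ht (h.mem_CD h.ha hs)
    have zc : ∀ X : Subgroup G, (mZ G).ker ≤ 𝐂 X := fun X z hz => mem_cent.2 fun y _ => mem_center_iff.1 (k hz) y
    rw [e, ← index_comap_of_surjective _ sj, comap_map_eq] at k4
    obtain ⟨j, hj⟩ := ((pi_closure (fun t ht => h.sq ht.1) cc).sup (ker_two_psl _ i sj k pf)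
      (.inr ((zc _).trans (cent_le_norm _)))).card_pow
    have ab : Abel (closure (EV D a)) := (closure_le _).2 fun s hs => le_cent1_iff.1
      ((closure_le _).2 fun t ht => mem_cent1.2 (cc t ht s hs))
    have := CF.Transfer.abelian_hall_inf_commutator_inf_center (Abel.comm (sup_le (le_centralizer_iff.1
      (sup_le ab (zc _))) (zc _))) (hj ▸ (Nat.coprime_two_left.2 k4).pow_left j)
    have ij : Function.Injective (mZ G) := (MonoidHom.ker_eq_bot_iff _).1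
      (eq_bot_iff.2 (this ▸ le_inf (le_inf le_sup_right (pf ▸ le_top)) k))
    exact .inl ⟨F, _, _, by rw [k3, e, card_map_of_injective ij], ⟨(MulEquiv.ofBijective _ ⟨ij, sj⟩).trans i⟩⟩
  obtain ⟨s, hs, rfl⟩ := RC.mem r1 ⟨a, h.ha, rfl⟩
  obtain ⟨r, rfl⟩ := sj r
  rw [← map_mul] at r2 r3 r4 r5
  have s2 : mZ G s * mZ G s = 1 := by rw [← map_mul, h.sq hs, map_one]
  have o' : Op s t := h.op hs ht fun c => r3 (by
    have : s * t * (s * t) = 1 := cm_eq_one (h.sq hs) (h.sq ht) c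
    rwa [show 5 = 2 + 2 + 1 from rfl, pow_succ, pow_add, pow_two, ← map_mul, this, map_one, one_mul,
      one_mul] at r4)
  have e1 : r⁻¹ * s * r⁻¹⁻¹ = s := inj (h.conj _ hs) hs (by
    rw [map_mul, map_mul, ← r2]; simp [mul_assoc])
  have e2 : r⁻¹ * t * r⁻¹⁻¹ = s * (s * t) ^ 2 := inj (h.conj _ ht) (h.mul_pow_mem hs ht 2) (by
    rw [map_mul _ s, map_pow, ← r5, map_mul _ s]
    nth_rw 1 [← e1]
    simp only [map_mul, map_inv, mul_assoc, mm s2, inv_inv, mul_inv_cancel_left])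
  refine .inr ⟨s, ev s hs r1, t, ht, r, ?_, ?_, o', ?_, ?_⟩
  · rw [Commute, SemiconjBy]; nth_rw 1 [← e1]; group
  · obtain ⟨j, hj⟩ := two_pow ((ker_two_sz _ k1 sj k pf).elt (x := r * r * (r * r)) (by
      rw [MonoidHom.mem_ker, map_mul, r2, s2]))
    refine fun p hp d => piNat_pow_self Nat.prime_two (2 + j) p hp (d.trans (orderOf_dvd_of_pow_eq_one ?_))
    rw [pow_add, pow_mul, ← hj]; congr 1; simp [pow_succ, mul_assoc]
  · have c := mem_center_iff.1 (k (show (s * t) ^ 5 ∈ (mZ G).ker by rwa [MonoidHom.mem_ker, map_pow])) s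
    have i := CF.Invol.conj_pow_of_inverts (CF.Invol.left_inverts_mul (h.sq hs) (h.sq ht)) 5
    rw [c, mul_inv_cancel_right] at i
    exact eq_one_of_odd (n := 1) (o'.odd.of_dvd_nat (orderOf_pow_dvd 5)) (by
      rw [pow_one, pow_two]; nth_rw 1 [i]; simp)
  · rw [← mm (h.sq hs) ((s * t) ^ 2), ← e2]
    nth_rw 2 [← e1]
    group

theorem OC.main (h : OC D) (dc : ∀ a ∈ D, ∀ y ∈ D, RC D a y) (O : 𝐎 {2} (⊤ : Subgroup G) = ⊥)
    (Z : center G = ⊥) (ha : a ∈ D) (hx : x ∈ D) (o : Op a x) :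
    ∃ (F : Type) (_ : Field F) (_ : Fintype F), Fintype.card F = ♯(closure (EV D a)) ∧
      Nonempty (FF D a x ≃* Matrix.ProjectiveSpecialLinearGroup (Fin 2) F) := by
  obtain ⟨D', a', x', h', ea, -, l, m⟩ := h.exists_XS ha hx o
  have ev : ∀ y ∈ D', Commute a' y → (y : G) ∈ EV D a := fun y hy c => h.mem_EV_FF ha hx o
    ⟨l y hy, by simpa [ea] using c.map (FF D a x).subtype⟩ y.2
  have key : ∀ y ∈ D', a' ≠ y → Commute a' y → a' * y ∈ D' := fun y hy n c => by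
    have := h.ln_of_EV dc O Z ha ⟨ha, .refl _ _⟩ (ev y hy c) fun e => n (Subtype.ext (ea.trans e))
    exact (m _ (by rw [coe_mul, ea]; exact ⟨this.m, h.ln_eq (this.third h.toRI)⟩)).1
  obtain ⟨b, lb⟩ := h.line ha
  let b' : FF D a x := ⟨b, subset_closure (.inl ⟨lb.r, h.ln_eq lb⟩)⟩
  have hb := (m b' ⟨lb.r, h.ln_eq lb⟩).1
  have cb : Commute a' b' := Subtype.ext (by rw [coe_mul, coe_mul, ea]; exact lb.c)
  obtain ⟨F, _, _, k1, k2⟩ | ⟨s, hs, t, ht, r, k1, k2, k3, k4, k5⟩ := h'.final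
    ⟨h'.ha, hb, cb, key _ hb (fun e => lb.ne h.toRI (ea.symm.trans (congrArg Subtype.val e))) cb⟩ fun s hs t ht n c => by
      obtain ⟨g, rfl⟩ := h'.cl a' h'.ha s hs
      simpa [mul_assoc] using h'.conj g (key _ (h'.conj g⁻¹ ht) (fun e => n (by rw [e]; group))
        (by simpa [mul_assoc] using c.conj g⁻¹))
  · refine ⟨F, inferInstance, inferInstance, ?_, k2⟩
    rw [k1, ← card_map_of_injective (subtype_injective _), MonoidHom.map_closure]
    refine congrArg (fun s : Set G => ♯(closure s)) ?_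
    refine Set.ext fun y => ⟨?_, fun hy => ⟨⟨y, subset_closure (.inl hy)⟩, m _ hy, rfl⟩⟩
    rintro ⟨y, hy, rfl⟩; exact ev y hy.1 (h'.mem_CD h'.ha hy).2
  · exact (h.no_sz dc O Z ha hx o (ev s hs.1 (h'.mem_CD h'.ha hs).2) (l t ht) t.2 r.2 (congrArg Subtype.val k1)
      (k2.map (Subgroup.subtype _)) (op_coe.2 k3) (congrArg Subtype.val k4) (congrArg Subtype.val k5)).elim

end CF.Rt
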